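import Cfsg.Agent.H8.C11.Set

/-! The centraliser of `σ` and its two restrictions. -/

set_option autoImplicit false
set_option linter.unusedSimpArgs false
set_option linter.unusedSectionVars false
set_option linter.unusedVariables false

namespace Cfsg.Agent.H8.C11

open Matrix Cfsg.Agent.H5.T3 Cfsg.Agent.H5.C5

variable {F : Type*} [Field F]

theorem half (h2 : (2 : F) ≠ 0) : (2⁻¹ + 2⁻¹ : F) = 1 := by field_simp; norm_num

theorem sum_pl {A : Type*} [AddCommMonoid A] (f : Fin 11 → A) :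
    ∑ i, f i = f 0 + ∑ k, (f (pl k 0) + f (pl k 1)) := by
  simp only [Fin.sum_univ_succ, pl, Fin.sum_univ_zero]
  simp
  abel

theorem ev_pl (k : Fin 5) (a : Fin 2) : ev (pl k a) = k.succ := by revert k a; decide
theorem ev_zero : ev 0 = 0 := rfl
theorem pl01 (k : Fin 5) : pl k 0 ≠ pl k 1 := by revert k; decide

section
variable {m : Type*}

theorem mulAu (X : Matrix m (Fin 11) F) (i : m) (l : Fin 5) :
    (X * Au F : Matrix m (Fin 5) F) i l = X i (pl l 0) - X i (pl l 1) := by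
  simp [mul_apply, sum_pl, Au, pl_inj, (pl_ne _ _).symm, sub_eq_add_neg, Finset.sum_add_distrib]
theorem Bumul (X : Matrix (Fin 11) m F) (k : Fin 5) (j : m) :
    (Bu F * X : Matrix (Fin 5) m F) k j = 2⁻¹ * (X (pl k 0) j - X (pl k 1) j) := by
  simp [mul_apply, sum_pl, Bu, pl_inj, (pl_ne _ _).symm, sub_eq_add_neg, Finset.sum_add_distrib, mul_add]
theorem mulAv0 (X : Matrix m (Fin 11) F) (i : m) : (X * Av F : Matrix m (Fin 6) F) i 0 = X i 0 := by
  simp [mul_apply, sum_pl, Av, ev_pl, ev_zero]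
theorem mulAvs (X : Matrix m (Fin 11) F) (i : m) (l : Fin 5) :
    (X * Av F : Matrix m (Fin 6) F) i l.succ = X i (pl l 0) + X i (pl l 1) := by
  simp [mul_apply, sum_pl, Av, ev_pl, ev_zero, Finset.sum_add_distrib, (Fin.succ_ne_zero _).symm]
theorem Bvmul0 (X : Matrix (Fin 11) m F) (j : m) : (Bv F * X : Matrix (Fin 6) m F) 0 j = X 0 j := by
  simp [mul_apply, sum_pl, Bv, ev_pl, ev_zero]
theorem Bvmuls (X : Matrix (Fin 11) m F) (k : Fin 5) (j : m) :
    (Bv F * X : Matrix (Fin 6) m F) k.succ j = 2⁻¹ * (X (pl k 0) j + X (pl k 1) j) := by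
  simp [mul_apply, sum_pl, Bv, ev_pl, ev_zero, Finset.sum_add_distrib, (Fin.succ_ne_zero _).symm, pl_ne,
    mul_add]

end

theorem BAu (h2 : (2 : F) ≠ 0) : (Bu F * Au F : M5 F) = 1 := by
  ext k l; rw [Bumul]; simp only [Au, of_apply, pl_inj, one_apply]
  by_cases e : k = l <;> simp [e]
  field_simp; norm_num
theorem BAv (h2 : (2 : F) ≠ 0) : (Bv F * Av F : M6 F) = 1 := by
  ext k l
  refine Fin.cases ?_ (fun k => ?_) k
  · rw [Bvmul0]; by_cases e : 0 = l <;> simp [Av, ev_zero, one_apply, e]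
  · rw [Bvmuls]; simp only [Av, of_apply, ev_pl, one_apply]
    split_ifs
    · field_simp; norm_num
    · simp
theorem BAuv : (Bu F * Av F) = 0 := by ext k l; rw [Bumul]; simp [Av, ev_pl]
theorem BAvu : (Bv F * Au F) = 0 := by
  ext k l; rw [mulAu]; simp [Bv, ev_pl, pl_ne]
theorem σ_apply (i j : Fin 11) : (σ : M11 F) i j = if 10 * j = i then -1 else 0 := rfl
theorem ABu : (Au F * Bu F : M11 F) = (2⁻¹ : F) • (1 + σ) := by
  refine ext_pl ?_ ?_ ?_ fun k a l b => ?_ <;>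
    simp [mul_apply, Au, Bu, σ_apply, pl_neg, pl_inj, pl_ne, (pl_ne _ _).symm, one_apply]
  rw [Finset.sum_eq_single l (fun x _ hx => by simp [hx.symm]) (by simp)]
  by_cases e : k = l
  · subst e; fin_cases a <;> fin_cases b <;> simp
  · simp [e, Ne.symm e]
theorem ABv (h2 : (2 : F) ≠ 0) : (Av F * Bv F : M11 F) = (2⁻¹ : F) • (1 - σ) := by
  refine ext_pl ?_ ?_ ?_ fun k a l b => ?_ <;>
    simp [mul_apply, Av, Bv, σ_apply, pl_neg, pl_inj, pl_ne, (pl_ne _ _).symm, one_apply, ev_pl, ev_zero,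
      (Fin.succ_ne_zero _).symm]
  · field_simp; norm_num
  by_cases e : k = l
  · subst e; fin_cases a <;> fin_cases b <;> simp
  · simp [e, Ne.symm e]
theorem sumuv (h2 : (2 : F) ≠ 0) : (Au F * Bu F + Av F * Bv F : M11 F) = 1 := by
  rw [ABv h2, ABu, ← smul_add, add_add_sub_cancel, ← two_smul F, smul_smul, inv_mul_cancel₀ h2, one_smul]

/-- the centraliser of `σ` -/
def CC (M : Subgroup (GL (Fin 11) F)) : Subgroup (GL (Fin 11) F) :=
  M ⊓ (Cm (Au F * Bu F) ⊓ Cm (Av F * Bv F))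

variable {M : Subgroup (GL (Fin 11) F)}

theorem CCu : CC M ≤ Cm (Au F * Bu F) := fun _ h => h.2.1
theorem CCv : CC M ≤ Cm (Av F * Bv F) := fun _ h => h.2.2

def ru (h2 : (2 : F) ≠ 0) (M : Subgroup (GL (Fin 11) F)) := rs' (BAu h2) (CCu (M := M))
def rv (h2 : (2 : F) ≠ 0) (M : Subgroup (GL (Fin 11) F)) := rs' (BAv h2) (CCv (M := M))

/-- commuting with `σ` entrywise -/
theorem comm_σ {X : M11 F} : X * σ = σ * X ↔ ∀ i j, X (10 * i) (10 * j) = X i j := by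
  have k : ∀ j : Fin 11, 10 * (10 * j) = j := by decide
  simp only [← Matrix.ext_iff, mulσ, σmul, neg_inj]
  exact ⟨fun h i j => by rw [← h, k], fun h i j => by rw [← h, k]⟩

variable (h2 : (2 : F) ≠ 0)
include h2

theorem CC_dec (g : CC M) : g.1.1 = Au F * (ru h2 M g).1 * Bu F + Av F * (rv h2 M g).1 * Bv F := by
  rw [ru, rv, rs'_val, rs'_val, sandwich (BAu h2) (CCu g.2), sandwich (BAv h2) (CCv g.2),
    ← mul_add, sumuv h2, Matrix.mul_one]

theorem CC_det (g : CC M) : g.1.1.det = (ru h2 M g).1.det * (rv h2 M g).1.det := by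
  have : g.1.1 = (1 + Au F * (((ru h2 M g).1 - 1) * Bu F)) * (1 + Av F * (((rv h2 M g).1 - 1) * Bv F)) := by
    have k : ∀ X : Matrix (Fin 6) (Fin 11) F, Bu F * (Av F * X) = 0 := fun X => by
      rw [← Matrix.mul_assoc, BAuv, Matrix.zero_mul]
    rw [CC_dec h2]
    simp only [Matrix.sub_mul, Matrix.mul_sub, Matrix.one_mul, Matrix.mul_one, add_mul, mul_add, k,
      Matrix.mul_zero, Matrix.mul_assoc]
    rw [← sumuv h2]; abel
  rw [this, det_mul, det_one_add_mul_comm (Au F), det_one_add_mul_comm (Av F), Matrix.mul_assoc,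
    Matrix.mul_assoc, BAu h2, BAv h2]
  simp

theorem mem_CC {g : GL (Fin 11) F} (hg : g ∈ M) (h : g.1 * σ = σ * g.1) : g ∈ CC M := by
  refine ⟨hg, mem_Cm.2 ?_, mem_Cm.2 ?_⟩
  · rw [ABu, mul_smul_comm, smul_mul_assoc, mul_add, add_mul, h]; simp
  · rw [ABv h2, mul_smul_comm, smul_mul_assoc, mul_sub, sub_mul, h]; simp

theorem ex_CC {X : M11 F} (hX : InM M X) (h : X * σ = σ * X) : ∃ g : CC M, g.1.1 = X := by
  obtain ⟨g, hg, rfl⟩ := hX
  exact ⟨⟨g, mem_CC h2 hg h⟩, rfl⟩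

theorem CC_comm (y : CC M) : y.1.1 * σ = σ * y.1.1 := by
  have := mem_Cm.1 (CCu y.2)
  rw [ABu, mul_smul_comm, smul_mul_assoc, mul_add, add_mul, mul_one, one_mul] at this
  exact add_left_cancel (smul_right_injective _ (inv_ne_zero h2) this)

theorem CC_ext {g g' : CC M} (e1 : ru h2 M g = ru h2 M g') (e2 : rv h2 M g = rv h2 M g') : g = g' :=
  Subtype.ext (Units.ext (by rw [CC_dec h2, CC_dec h2, e1, e2]))

theorem CC_scal {g : CC M} {a b : F} (h1 : (ru h2 M g).1 = a • 1) (h3 : (rv h2 M g).1 = b • 1) :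
    (b = a → g.1.1 = a • 1) ∧ (b = -a → g.1.1 = a • σ) := by
  rw [CC_dec h2, h1, h3]
  simp only [Matrix.mul_smul, Matrix.smul_mul, Matrix.mul_one, ABu, ABv h2]
  constructor <;> rintro rfl <;> match_scalars <;> field_simp <;> ring

theorem CC_11 (g : CC M) (k l : Fin 5) : g.1.1 (pl k 1) (pl l 1) = g.1.1 (pl k 0) (pl l 0) := by
  simpa [pl_neg] using comm_σ.1 (CC_comm h2 g) (pl k 0) (pl l 0)
theorem CC_10 (g : CC M) (k l : Fin 5) : g.1.1 (pl k 1) (pl l 0) = g.1.1 (pl k 0) (pl l 1) := by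
  simpa [pl_neg] using comm_σ.1 (CC_comm h2 g) (pl k 0) (pl l 1)
theorem CC_z1 (g : CC M) (l : Fin 5) : g.1.1 0 (pl l 1) = g.1.1 0 (pl l 0) := by
  simpa [pl_neg] using comm_σ.1 (CC_comm h2 g) 0 (pl l 0)
theorem CC_1z (g : CC M) (l : Fin 5) : g.1.1 (pl l 1) 0 = g.1.1 (pl l 0) 0 := by
  simpa [pl_neg] using comm_σ.1 (CC_comm h2 g) (pl l 0) 0

theorem ru_apply (g : CC M) (k l : Fin 5) :
    (ru h2 M g).1 k l = g.1.1 (pl k 0) (pl l 0) - g.1.1 (pl k 0) (pl l 1) := by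
  rw [ru, rs'_val, mulAu, Bumul, Bumul, CC_11 h2, CC_10 h2]; field_simp; ring
theorem rv_00 (g : CC M) : (rv h2 M g).1 0 0 = g.1.1 0 0 := by
  rw [rv, rs'_val, mulAv0, Bvmul0]
theorem rv_0s (g : CC M) (l : Fin 5) : (rv h2 M g).1 0 l.succ = 2 * g.1.1 0 (pl l 0) := by
  rw [rv, rs'_val, mulAvs, Bvmul0, Bvmul0, CC_z1 h2, two_mul]
theorem rv_s0 (g : CC M) (k : Fin 5) : (rv h2 M g).1 k.succ 0 = g.1.1 (pl k 0) 0 := by
  rw [rv, rs'_val, mulAv0, Bvmuls, CC_1z h2]; field_simp; ring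
theorem rv_ss (g : CC M) (k l : Fin 5) :
    (rv h2 M g).1 k.succ l.succ = g.1.1 (pl k 0) (pl l 0) + g.1.1 (pl k 0) (pl l 1) := by
  rw [rv, rs'_val, mulAvs, Bvmuls, Bvmuls, CC_11 h2, CC_10 h2]; field_simp; ring

/-- restrictions of an even diagonal matrix -/
theorem ru_diag {g : CC M} {d : Fin 11 → F} (e : g.1.1 = diagonal d) :
    (ru h2 M g).1 = diagonal fun k => d (pl k 0) := by
  ext k l; simp [ru_apply, e, diagonal_apply, pl_inj]
theorem rv_diag {g : CC M} {d : Fin 11 → F} (e : g.1.1 = diagonal d) :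
    (rv h2 M g).1 = diagonal (Fin.cons (d 0) fun k => d (pl k 0)) := by
  ext k l
  refine Fin.cases ?_ (fun k => ?_) k <;> refine Fin.cases ?_ (fun l => ?_) l <;>
    simp [rv_00, rv_0s, rv_s0, rv_ss, e, diagonal_apply, pl_inj, pl_ne, (pl_ne _ _).symm,
      (Fin.succ_ne_zero _).symm]

theorem ru_σ {g : CC M} (e : g.1.1 = σ) : (ru h2 M g).1 = 1 := by
  ext k l; simp [ru_apply, e, σ_apply, pl_neg, pl_inj, one_apply, eq_comm]; split_ifs <;> simp
theorem rv_σ {g : CC M} (e : g.1.1 = σ) : (rv h2 M g).1 = -1 := by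
  ext k l
  refine Fin.cases ?_ (fun k => ?_) k <;> refine Fin.cases ?_ (fun l => ?_) l <;>
    simp [rv_00, rv_0s, rv_s0, rv_ss, e, σ_apply, pl_neg, pl_inj, pl_ne, (pl_ne _ _).symm,
      (Fin.succ_ne_zero _).symm, one_apply, eq_comm]
  split_ifs <;> simp

omit h2

theorem diag_comm_σ {d : Fin 11 → F} (hd : ∀ i, d (10 * i) = d i) : diagonal d * σ = σ * diagonal d :=
  comm_σ.2 fun i j => by
    have k : ∀ i j : Fin 11, 10 * i = 10 * j ↔ i = j := by decide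
    simp [diagonal_apply, k, hd]

/-- `Φ` on the odd part -/
def Φu (ω : F) : M5 F := of fun k l => ω ^ ((pl k 0 : ℕ) * pl l 0 % 11) - ω ^ ((pl k 0 : ℕ) * pl l 1 % 11)

/-- `Φ` on the even part -/
def Φv (ω : F) : M6 F := of fun k l => Fin.cases (Fin.cases 1 (fun _ => 2) l) (fun k => Fin.cases 1
  (fun l => ω ^ ((pl k 0 : ℕ) * pl l 0 % 11) + ω ^ ((pl k 0 : ℕ) * pl l 1 % 11)) l) k

theorem Φu_symm (ω : F) : (Φu ω)ᵀ = Φu ω := by
  ext k l
  simp only [Φu, transpose_apply, of_apply]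
  congr 2 <;> revert k l <;> decide

theorem Φσ (ω : F) : Φ ω * σ = σ * Φ ω := comm_σ.2 fun i j => by
  simp only [Φ, of_apply]; congr 1; revert i j; decide

theorem δσ : (δ * σ : M11 F) = σ * δ := by
  rw [δ, σ, pm_pm, pm_pm, mul_comm]; congr 1; ext j; revert j; decide

theorem uσ (ω : F) : uu ω * σ = σ * uu ω := diag_comm_σ fun i => by congr 1; revert i; decide

namespace Hy

variable {p : ℕ} {ω : F} (h : Hy p ω M)
include h

theorem exσ : ∃ g : CC M, g.1.1 = σ := ex_CC h.two h.hσ rfl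

theorem exu : ∃ g : CC M, g.1.1 = uu ω ∧ (ru h.two M g).1 = diagonal (fun i => ω ^ ![1, 9, 4, 3, 5] i) ∧
    (rv h.two M g).1 = diagonal fun i => ω ^ ![0, 1, 9, 4, 3, 5] i := by
  obtain ⟨g, hg⟩ := ex_CC h.two h.hu (uσ ω)
  refine ⟨g, hg, ?_, ?_⟩
  · rw [ru_diag h.two hg]; congr 1; ext k; congr 1; revert k; decide
  · rw [rv_diag h.two hg]; congr 1; ext k
    refine Fin.cases rfl (fun k => ?_) k
    simp only [Fin.cons_succ]; congr 1; revert k; decide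

theorem exδ : ∃ g : CC M, g.1.1 = δ ∧ (ru h.two M g).1 = (of fun k l => if l + 1 = k then 1 else 0) ∧
    (rv h.two M g).1 = of fun k l => if ![0, 2, 3, 4, 5, 1] l = k then 1 else 0 := by
  obtain ⟨g, hg⟩ := ex_CC h.two h.hδ δσ
  refine ⟨g, hg, ?_, ?_⟩
  · ext k l; simp [ru_apply, hg, δ, pm, pl_three, pl_inj]
  · ext k l
    have : ∀ l : Fin 5, (![0, 2, 3, 4, 5, 1] : Fin 6 → Fin 6) l.succ = (l + 1).succ := by decide
    refine Fin.cases ?_ (fun k => ?_) k <;> refine Fin.cases ?_ (fun l => ?_) l <;>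
      simp only [of_apply, this] <;>
      simp [rv_00, rv_0s, rv_s0, rv_ss, hg, δ, pm, pl_three, pl_inj, pl_ne, (pl_ne _ _).symm,
        (Fin.succ_ne_zero _).symm]

theorem exφ : ∃ g : CC M, ∃ c : F, 11 * c ^ 2 = -1 ∧ g.1.1 = c • Φ ω ∧ (ru h.two M g).1 = c • Φu ω ∧
    (rv h.two M g).1 = c • Φv ω := by
  obtain ⟨c, hc, hφ⟩ := h.hφ
  obtain ⟨g, hg⟩ := ex_CC h.two hφ (by rw [smul_mul_assoc, mul_smul_comm, Φσ])
  refine ⟨g, c, hc, hg, ?_, ?_⟩
  · ext k l; simp [ru_apply, hg, Φ, Φu, mul_sub]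
  · ext k l
    refine Fin.cases ?_ (fun k => ?_) k <;> refine Fin.cases ?_ (fun l => ?_) l <;>
      simp [rv_00, rv_0s, rv_s0, rv_ss, hg, Φ, Φv, mul_add, mul_comm]

theorem Φu_ne {c : F} (hc : 11 * c ^ 2 = -1) (i j : Fin 5) : (c • Φu ω) i j ≠ 0 := by
  have c0 : c ≠ 0 := by rintro rfl; simp at hc
  exact mul_ne_zero c0 (h.ne (by revert i j; decide))

theorem Φv_ne {c : F} (hc : 11 * c ^ 2 = -1) (i j : Fin 6) : (c • Φv ω) i j ≠ 0 := by
  have c0 : c ≠ 0 := by rintro rfl; simp at hc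
  have k : ∀ a b : ℕ, (2 * a + 10 * (2 * b)) % 11 ≠ 0 → ω ^ a + ω ^ b ≠ 0 := fun a b e e' =>
    h.ne e (by rw [mul_comm 2, mul_comm 2, pow_mul, pow_mul]; linear_combination (ω ^ a - ω ^ b) * e')
  refine mul_ne_zero c0 ?_
  refine Fin.cases ?_ (fun i => ?_) i <;> refine Fin.cases ?_ (fun j => ?_) j
  exacts [one_ne_zero, h.two, one_ne_zero, k _ _ (by revert i j; decide)]

theorem φφ {c : F} (hc : 11 * c ^ 2 = -1) : (c • Φ ω) * (c • Φ ω) = σ := by
  rw [smul_mul_smul_comm, ΦΦ h.om, smul_smul, show c * c * -11 = 1 by linear_combination -hc, one_smul]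

/-- the Fourier element with all its properties -/
theorem exφ' : ∃ f : CC M, (f * f).1.1 = σ ∧ (ru h.two M f).1 * (ru h.two M f).1 = 1 ∧
    (ru h.two M f).1ᵀ = (ru h.two M f).1 ∧ (∀ i j, (ru h.two M f).1 i j ≠ 0) ∧
    (∀ i j, (rv h.two M f).1 i j ≠ 0) ∧ (rv h.two M f).1 * (rv h.two M f).1 = -1 := by
  obtain ⟨f, c, hc, f0, f1, f2⟩ := h.exφ
  have e : (f * f).1.1 = σ := by rw [Subgroup.coe_mul, Units.val_mul, f0, h.φφ hc]
  refine ⟨f, e, ?_, by rw [f1, transpose_smul, Φu_symm], f1 ▸ h.Φu_ne hc, f2 ▸ h.Φv_ne hc, ?_⟩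
  · rw [← Units.val_mul, ← map_mul, ru_σ h.two e]
  · rw [← Units.val_mul, ← map_mul, rv_σ h.two e]

end Hy

theorem σ_ne (a : F) : (σ : M11 F) ≠ a • 1 := fun e => by
  simpa [σ_apply] using congrFun (congrFun e 1) 10

end Cfsg.Agent.H8.C11
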