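import Cfsg.Agent.H8.C11.C0
import Cfsg.Agent.H5.C5.Grp

/-! The end game for the normaliser of `11^{1+2}` in `SL₁₁(q)`. -/

set_option autoImplicit false
set_option linter.unusedSimpArgs false

namespace Cfsg.Agent.H8.C11

open Matrix Cfsg.Agent.H5.T3 Cfsg.Agent.H5.C5

variable {F : Type*} [Field F] {M : Subgroup (GL (Fin 11) F)}

theorem mem_of_inv11 {G : Type*} [Group G] (O : Subgroup G) [hO : O.Normal] (z : G)
    (hd : ∀ g, ∃ o ∈ O, ∃ c, Commute c z ∧ g = o * c) {x : G} (hx : z * x⁻¹ * z⁻¹ = x)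
    (h7 : x ^ 11 = 1) : x ∈ O := by
  obtain ⟨o, ho, c, hc, e⟩ := hd x
  have k : x * x ∈ O := by
    have : x * x = o * (z * o⁻¹ * z⁻¹) := by
      nth_rewrite 2 [← hx]
      rw [e]
      calc o * c * (z * (o * c)⁻¹ * z⁻¹) = o * (c * z) * c⁻¹ * o⁻¹ * z⁻¹ := by group
        _ = _ := by rw [hc.eq]; group
    rw [this]; exact mul_mem ho (hO.conj_mem _ (inv_mem ho) z)
  have : x = (x * x) ^ 6 := by
    rw [← pow_two, ← pow_mul, show 2 * 6 = 11 + 1 from rfl, pow_succ, h7, one_mul]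
  rw [this]; exact pow_mem k 6

theorem ρ11 {ω : F} (h : ω ^ 11 = 1) : ρ ω ^ 11 = 1 := by
  rw [ρ_eq, diagonal_pow, ← diagonal_one]
  congr 1
  ext i
  rw [Pi.pow_apply, ← pow_mul, mul_comm, pow_mul, h, one_pow]

theorem τ_pow (n : ℕ) : (τ : M11 F) ^ n = pm (· + 1)^[n] 1 := by
  induction n with
  | zero => rw [pow_zero]; exact (pm_one fun _ => rfl).symm
  | succ n ih => rw [pow_succ, ih, τ, pm_pm, one_mul]; rfl

theorem τ11 : (τ : M11 F) ^ 11 = 1 := by rw [τ_pow, pm_one (by decide)]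

theorem ρσρ {ω : F} (h : ω ^ 11 = 1) : ρ ω * σ * ρ ω = σ := by
  ext i j
  simp only [ρ_eq, mul_diagonal, diagonal_mul, σ_apply]
  split_ifs with e
  · subst e
    rw [mul_neg_one, neg_mul, ← pow_add, ← om_mod h, show ((10 * j : Fin 11) + j : ℕ) % 11 = 0 by
      revert j; decide, pow_zero]
  · simp

theorem τστ : (τ * σ * τ : M11 F) = σ := by
  rw [τ, σ, pm_pm, pm_pm, one_mul, mul_one]; congr 1; ext j; revert j; decide

/-- `σ` is the only involution of its centraliser -/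
def UQ (M : Subgroup (GL (Fin 11) F)) : Prop :=
  ∀ c ∈ M, c.1 * σ = σ * c.1 → c.1 * c.1 = 1 → c.1 = 1 ∨ c.1 = σ

/-- normal subgroups of odd order containing the extraspecial group meet the centraliser in scalars -/
def ODD (ω : F) (M : Subgroup (GL (Fin 11) F)) : Prop :=
  ∀ O : Subgroup M, O.Normal → Odd (Nat.card O) → (∃ x ∈ O, x.1.1 = ρ ω) → (∃ x ∈ O, x.1.1 = τ) →
    ∀ c ∈ O, c.1.1 * σ = σ * c.1.1 → ∃ a : F, c.1.1 = a • 1

/-- the conclusion: conjugates of `ρ, τ` commute with `ρ, τ` up to scalars -/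
def Nrm (ω : F) (M : Subgroup (GL (Fin 11) F)) : Prop :=
  ∀ g ∈ M, ∀ X, X = ρ ω ∨ X = τ → ∀ Y, Y = ρ ω ∨ Y = τ →
    ∃ a : F, g.1 * X * (g⁻¹).1 * Y = a • (Y * (g.1 * X * (g⁻¹).1))

/-- the core statement -/
def Core11 (F : Type*) [Field F] (p : ℕ) : Prop := ∀ {ω : F} {M : Subgroup (GL (Fin 11) F)},
  Hy p ω M → ¬ SLin M → Nrm ω M

theorem endgame11 {p : ℕ} {ω : F} (h : Hy p ω M) (hu : UQ M) (hk : ODD ω M) : Nrm ω M := by
  haveI := h.fin
  obtain ⟨z0, hz0, ez⟩ := h.hσ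
  let z : M := ⟨z0, hz0⟩
  have zz : z * z = 1 := Subtype.ext (Units.ext (by
    show z0.1 * z0.1 = 1
    rw [ez, σσ]))
  have z1 : z ≠ 1 := fun e =>
    σ_ne (1 : F) (by rw [one_smul]; exact ez.symm.trans (congrArg (fun x : M => x.1.1) e))
  have zo : orderOf z = 2 := orderOf_eq_prime (by rw [pow_two, zz]) z1
  have inC : ∀ c : M, Commute c z → c.1.1 * σ = σ * c.1.1 := fun c hc =>
    ez ▸ congrArg (fun x : M => x.1.1) hc
  obtain ⟨O, hO, ho, hd⟩ := H4.BS.bs (uniq_inv z zo fun c hc c2 =>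
    (hu c c.2 (inC c hc) (by rw [pow_two] at c2; exact congrArg (fun x : M => x.1.1) c2)).imp
      (fun e => Subtype.ext (Units.ext e)) fun e => Subtype.ext (Units.ext (e.trans ez.symm))) z zo
  have inO : ∀ X : M11 F, InM M X → X * σ * X = σ → X ^ 11 = 1 → ∃ x ∈ O, x.1.1 = X := by
    rintro _ ⟨x, hx, rfl⟩ e1 e2
    exact ⟨⟨x, hx⟩, mem_of_inv11 O z hd (by
      rw [mul_inv_eq_iff_eq_mul, mul_inv_eq_iff_eq_mul]
      exact Subtype.ext (Units.ext (by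
        show z0.1 = x.1 * z0.1 * x.1
        rw [ez, e1]))) (Subtype.ext (Units.ext (by
        show (x ^ 11).1 = 1
        rw [Units.val_pow_eq_pow_val, e2]))), rfl⟩
  have o1 := inO _ h.hρ (ρσρ h.one11) (ρ11 h.one11)
  have o2 := inO _ h.hτ τστ τ11
  have ab := ab_mod O ho z zz ((Subgroup.center (GL (Fin 11) F)).subgroupOf M)
    (fun c hc => Subgroup.mem_center_iff.2 fun g =>
      Subtype.ext (Subgroup.mem_center_iff.1 (Subgroup.mem_subgroupOf.1 hc) g.1)) fun c hc hcz => by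
      obtain ⟨a, ha⟩ := hk O hO ho o1 o2 c hc (inC c hcz)
      refine Subgroup.mem_center_iff.2 fun g => Units.ext ?_
      show g.1 * c.1.1 = c.1.1 * g.1
      rw [ha]; simp
  have o3 : ∀ X, X = ρ ω ∨ X = τ → ∃ x ∈ O, x.1.1 = X := by
    rintro X (rfl | rfl)
    exacts [o1, o2]
  intro g hg X hX Y hY
  obtain ⟨x, hx, rfl⟩ := o3 X hX
  obtain ⟨y, hy, rfl⟩ := o3 Y hY
  obtain ⟨c, hc, e⟩ := ab _ (hO.conj_mem x hx ⟨g, hg⟩) y hy
  rw [Subgroup.mem_subgroupOf, GeneralLinearGroup.center_eq_range_scalar] at hc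
  obtain ⟨a, ha⟩ := hc
  refine ⟨a, ?_⟩
  have e' : g.1 * x.1.1 * (g⁻¹).1 * y.1.1 = c.1.1 * (y.1.1 * (g.1 * x.1.1 * (g⁻¹).1)) :=
    congrArg (fun x : M => x.1.1) e
  rw [e', ← ha]; simp [smul_eq_diagonal_mul]

end Cfsg.Agent.H8.C11
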