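import Cfsg.Agent.H8.C11.End
import Cfsg.Agent.H1.T3Bridge
import Cfsg.Agent.H9.Sp.Basic
import Cfsg.Agent.H7.AschExtra

/-! Normal form of an extraspecial group `11^{1+2}` in dimension eleven. -/

set_option autoImplicit false
set_option linter.unusedSimpArgs false
set_option linter.unusedSectionVars false
set_option linter.unusedVariables false
set_option linter.unnecessarySeqFocus false

namespace Cfsg.Agent.H8.C11.Br

open Matrix Subgroup Cfsg.Agent.H5.T3 Cfsg.Agent.H5.C5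

variable {F : Type*} [Field F] {ω : F}

/-- twisted commutation -/
def Tw (A B : M11 F) (c : F) : Prop := A * B = c • (B * A)

section
variable {A B C : M11 F} {a b : F}

theorem Tw.mul (h : Tw A C a) (h' : Tw B C b) : Tw (A * B) C (a * b) := by
  unfold Tw at *
  rw [Matrix.mul_assoc, h', mul_smul_comm, ← Matrix.mul_assoc, h, smul_mul_assoc, smul_smul,
    Matrix.mul_assoc, mul_comm]

theorem tw_self (A : M11 F) : Tw A A 1 := by simp [Tw]

theorem Tw.pow (h : Tw A C a) (n : ℕ) : Tw (A ^ n) C (a ^ n) := by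
  induction n with
  | zero => simp [Tw]
  | succ n ih => rw [pow_succ, pow_succ]; exact ih.mul h

theorem Tw.seven (h : Tw A B a) (hA : A.det ≠ 0) (hB : B.det ≠ 0) : a ^ 11 = 1 := by
  have := congrArg det h
  simp only [det_mul, det_smul, Fintype.card_fin, mul_comm B.det] at this
  exact mul_right_cancel₀ (mul_ne_zero hA hB) (by rw [← this, one_mul])

end

theorem det_ρ (h : ω ^ 11 = 1) : (ρ ω).det = 1 := by
  rw [ρ_eq, det_diagonal, Finset.prod_pow_eq_pow_sum, ← om_mod h,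
    show (∑ i : Fin 11, (i : ℕ)) % 11 = 0 by decide, pow_zero]

theorem det_uu (h : ω ^ 11 = 1) : (uu ω).det = 1 := by
  rw [uu_eq, det_diagonal, Finset.prod_pow_eq_pow_sum, ← om_mod h,
    show (∑ i : Fin 11, (i : ℕ) ^ 2 % 11) % 11 = 0 by decide, pow_zero]

theorem pm_pow {R : Type*} [CommRing R] (f : Fin 11 → Fin 11) (n : ℕ) :
    pm f (1 : R) ^ n = pm f^[n] 1 := by
  induction n with
  | zero => ext i j; simp [pm, one_apply, eq_comm]
  | succ n ih => rw [pow_succ, ih]; ext i j; simp [pm, mul_apply]; rfl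

theorem det_pm (f : Fin 11 → Fin 11) {n : ℕ} (hn : Odd n) (hf : ∀ j, f^[n] j = j) :
    (pm f (1 : F)).det = 1 := by
  have e : (pm f (1 : ℤ)).det ^ n = 1 := by
    rw [← det_pow, pm_pow, show pm f^[n] (1 : ℤ) = 1 by ext i j; simp [pm, hf, one_apply, eq_comm],
      det_one]
  replace e := (pow_eq_one_iff_of_ne_zero hn.pos.ne').1 e |>.resolve_right fun k =>
    Nat.not_even_iff_odd.2 hn k.2
  have := (Int.castRingHom F).map_det (pm f 1)
  rw [e, map_one] at this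
  refine Eq.trans ?_ this.symm
  congr 1; ext i j; simp [pm]

theorem det_τ : (τ : M11 F).det = 1 := det_pm _ (n := 11) (by decide) (by decide)

theorem det_δ : (δ : M11 F).det = 1 := det_pm _ (n := 5) (by decide) (by decide)

theorem det_σ (h2 : (2 : F) ≠ 0) : (σ : M11 F).det = 1 := by
  obtain ⟨g, hg⟩ := ex_CC (M := ⊤) h2 (X := σ) ⟨⟨σ, σ, σσ, σσ⟩, trivial, rfl⟩ rfl
  rw [← hg, CC_det h2, ru_σ h2 hg, rv_σ h2 hg, det_neg]
  norm_num

theorem τ_apply (i j : Fin 11) : (τ : M11 F) i j = if j + 1 = i then 1 else 0 := rfl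

theorem ρτ (h : ω ^ 11 = 1) : Tw (ρ ω) τ ω := by
  unfold Tw; ext i j
  simp only [ρ_eq, diagonal_mul, mul_diagonal, Matrix.smul_apply, τ_apply, smul_eq_mul]
  split_ifs with e
  · subst e; rw [mul_one, one_mul, ← pow_succ']; exact om_congr h (by revert j; decide)
  · simp

theorem τρ (h : ω ^ 11 = 1) : Tw τ (ρ ω) (ω ^ 10) := by
  unfold Tw; rw [ρτ h, smul_smul, ← pow_succ, h, one_smul]

theorem uρ : uu ω * ρ ω = ρ ω * uu ω := by
  simp only [ρ_eq, uu_eq, diagonal_mul_diagonal, mul_comm]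

theorem uτ (h : ω ^ 11 = 1) : uu ω * τ = ρ ω * τ * ρ ω * uu ω := by
  ext i j
  simp only [ρ_eq, uu_eq, diagonal_mul, mul_diagonal, τ_apply]
  split_ifs with e
  · subst e; simp only [mul_one, ← pow_add]; exact om_congr h (by revert j; decide)
  · simp

theorem δρ (h : ω ^ 11 = 1) : δ * ρ ω = ρ (ω ^ 4) * δ := by
  ext i j
  simp only [ρ_eq, diagonal_mul, mul_diagonal, δ, pm, of_apply]
  split_ifs with e
  · subst e; simp only [mul_one, one_mul, ← pow_mul]; exact om_congr h (by revert j; decide)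
  · simp

theorem σρ (h : ω ^ 11 = 1) : σ * ρ ω = ρ (ω ^ 10) * σ := by
  ext i j
  simp only [ρ_eq, diagonal_mul, mul_diagonal, σ_apply]
  split_ifs with e
  · subst e; simp only [mul_neg_one, neg_one_mul, ← pow_mul, neg_inj]
    exact om_congr h (by revert j; decide)
  · simp

theorem ρ_pow (n : ℕ) : ρ ω ^ n = ρ (ω ^ n) := by
  rw [ρ_eq, ρ_eq, diagonal_pow]
  congr 1
  ext i
  rw [Pi.pow_apply, pow_right_comm]

theorem δτ : (δ * τ : M11 F) = τ * τ * τ * δ := by
  simp only [δ, τ, pm_pm]; congr 1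
  · ext j; revert j; decide
  · simp

theorem στ : (σ * τ : M11 F) = τ' * σ := by
  simp only [σ, τ, τ', pm_pm]; congr 1
  · ext j; revert j; decide
  · simp

theorem Φρ (h : ω ^ 11 = 1) : Φ ω * ρ ω = τ' * Φ ω := by
  ext i j
  simp only [ρ_eq, mul_diagonal, τ'mul, Φ, of_apply, ← pow_add]
  exact om_congr h (by revert i j; decide)

theorem Φτ (h : ω ^ 11 = 1) : Φ ω * τ = ρ ω * Φ ω := by
  ext i j
  simp only [ρ_eq, diagonal_mul, mulτ, Φ, of_apply, ← pow_add]
  exact om_congr h (by revert i j; decide)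

variable (h : Om11 ω) (h7 : (11 : F) ≠ 0)
include h h7

theorem root {c : F} (hc : c ^ 11 = 1) : ∃ k : ℕ, c = ω ^ k := by
  have := Fact.mk (show Nat.Prime 11 by norm_num)
  have : IsPrimitiveRoot ω 11 := orderOf_eq_prime (om11 h) (by simpa using om_pow h h7 (k := 1) (by norm_num)) ▸
    IsPrimitiveRoot.orderOf ω
  obtain ⟨k, -, e⟩ := this.eq_pow_of_pow_eq_one hc
  exact ⟨k, e.symm⟩

theorem scal_of_comm {X : M11 F} (h1 : Tw X (ρ ω) 1) (h2 : Tw X τ 1) : X = X 0 0 • 1 := by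
  have k1 : ∀ i j, i ≠ j → X i j = 0 := fun i j hij => by
    have := congrFun (congrFun h1 i) j
    simp only [ρ_eq, mul_diagonal, diagonal_mul, one_smul, mul_comm (X i j)] at this
    by_contra h0
    exact om_ne h h7 (by omega) (mul_right_cancel₀ h0 this)
  have a : ∀ i, X i i = X (i + 10) (i + 10) := fun i => by
    have := congrFun (congrFun h2 i) (i + 10)
    rwa [one_smul, mulτ, τmul, show i + 10 + 1 = i by clear this; revert i; decide] at this
  have b : ∀ (n : ℕ) i, X i i = X ((· + 10)^[n] i) ((· + 10)^[n] i) := fun n => by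
    induction n with
    | zero => exact fun _ => rfl
    | succ n ih => exact fun i => (a i).trans (ih _)
  ext i j
  by_cases hij : i = j
  · subst hij
    rw [b i i, show (· + 10)^[i] i = 0 by revert i; decide]; simp
  · simp [k1 i j hij, hij]

theorem pauli {X : M11 F} (hX : X.det ≠ 0) {a b : F} (h1 : Tw X (ρ ω) a) (h2 : Tw X τ b) :
    ∃ (m n : ℕ) (l : F), X = l • (ρ ω ^ m * τ ^ n) := by
  have o7 := om11 h
  obtain ⟨k, rfl⟩ := root h h7 (h1.seven hX (by simp [det_ρ o7]))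
  obtain ⟨m, rfl⟩ := root h h7 (h2.seven hX (by simp [det_τ]))
  have k1 := (h1.mul ((τρ o7).pow k)).mul ((tw_self _).pow (10 * m))
  have k2 := (h2.mul ((tw_self _).pow k)).mul ((ρτ o7).pow (10 * m))
  rw [one_pow, mul_one, ← mul_pow, ← pow_succ', o7, one_pow] at k1
  rw [one_pow, mul_one, pow_mul ω, ← mul_pow, ← pow_succ', o7, one_pow] at k2
  refine ⟨m, 10 * k, (X * τ ^ k * ρ ω ^ (10 * m) : M11 F) 0 0, ?_⟩
  rw [← smul_one_mul, ← scal_of_comm h h7 k1 k2, mul_assoc, ← mul_assoc (ρ ω ^ _), ← pow_add,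
    show 10 * m + m = 11 * m by ring, pow_mul, ρ11 o7, one_pow, one_mul, mul_assoc, ← pow_add,
    show k + 10 * k = 11 * k by ring, pow_mul, τ11, one_pow, mul_one]

theorem std {p : ℕ} (main : Core11 F p) (hp : p.Prime) [CharP F p] [Finite F]
    (cd : (Nat.card F = p ∧ p % 11 = 1) ∨
      (Nat.card F = p ^ 5 ∧ (p % 11 = 3 ∨ p % 11 = 4 ∨ p % 11 = 5 ∨ p % 11 = 9))) (h2 : (2 : F) ≠ 0) {R : Subgroup (GL (Fin 11) F)}
    (r1 : InM R (ρ ω)) (r2 : InM R τ) (tw : ∀ A B, InM R A → InM R B → ∃ c, Tw A B c) :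
    (∃ g ∈ Geo.specialLinear (Fin 11) F, g ∉ normalizer (R : Set (GL (Fin 11) F))) ∧
    ∀ M ≤ Geo.specialLinear (Fin 11) F, (∀ g ∈ Geo.specialLinear (Fin 11) F,
      g ∈ normalizer (R : Set (GL (Fin 11) F)) → g ∈ M) →
      (∃ g ∈ M, g ∉ normalizer (R : Set (GL (Fin 11) F))) → Geo.specialLinear (Fin 11) F ≤ M := by
  have o7 := om11 h
  have sl : ∀ g : GL (Fin 11) F, g ∈ Geo.specialLinear (Fin 11) F ↔ g.1.det = 1 := fun g => by
    simp [Geo.specialLinear, Units.ext_iff]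
  have inv : ∀ m n : ℕ, ρ ω ^ m * τ ^ n * (τ ^ (10 * n) * ρ ω ^ (10 * m)) = 1 := fun m n => by
    rw [mul_assoc, ← mul_assoc (τ ^ n), ← pow_add, show n + 10 * n = 11 * n by ring, pow_mul, τ11, one_pow,
      one_mul, ← pow_add, show m + 10 * m = 11 * m by ring, pow_mul, ρ11 o7, one_pow]
  have nrm : ∀ X Y Z : M11 F, X.det = 1 → InM R Y → InM R Z → X * ρ ω = Y * X → X * τ = Z * X →
      InM (normalizer (R : Set (GL (Fin 11) F)) ⊓ Geo.specialLinear (Fin 11) F) X := by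
    intro X Y Z hX hY hZ e1 e2
    let g := GeneralLinearGroup.mkOfDetNeZero X (by simp [hX])
    refine ⟨g, ⟨mem_normalizer_fintype fun r hr => ?_, (sl g).2 hX⟩, rfl⟩
    obtain ⟨a, ha⟩ := tw _ _ (InM.of hr) r1
    obtain ⟨b, hb⟩ := tw _ _ (InM.of hr) r2
    obtain ⟨m, n, l, e⟩ := pauli h h7 (GeneralLinearGroup.det_ne_zero r) ha hb
    have k1 : InM R (l • 1) := ((InM.of hr).mul ((r2.pow (10 * n)).mul (r1.pow (10 * m)))).congr (by
      rw [e, smul_mul_assoc, inv])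
    refine inM_iff.1 ((k1.mul ((hY.pow m).mul (hZ.pow n))).congr ?_)
    rw [Units.val_mul, Units.eq_mul_inv_iff_mul_eq, Units.val_mul, e]
    show _ * X = X * _
    rw [smul_one_mul, mul_smul_comm, smul_mul_assoc, ← mul_assoc, (SemiconjBy.pow_right e1 m).eq,
      mul_assoc, mul_assoc, (SemiconjBy.pow_right e2 n).eq]
  have om1 : InM R (ω • 1) := (((r1.mul r2).mul (r1.pow 10)).mul (r2.pow 10)).congr (by
    rw [ρτ o7, smul_mul_assoc, smul_mul_assoc, mul_assoc τ, ← pow_succ', ρ11 o7, mul_one, ← pow_succ', τ11])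
  obtain ⟨c, c1, c2⟩ : ∃ c : F, 11 * c ^ 2 = -1 ∧ (c • Φ ω).det = 1 := by
    have e1 : 11 * ((1 + 2 * ω + 2 * ω ^ 3 + 2 * ω ^ 4 + 2 * ω ^ 5 + 2 * ω ^ 9) / 11) ^ 2 = -1 := by
      field_simp; grind
    generalize (1 + 2 * ω + 2 * ω ^ 3 + 2 * ω ^ 4 + 2 * ω ^ 5 + 2 * ω ^ 9) / 11 = c at e1
    have e3 := congrArg det (ΦΦ h)
    simp only [det_mul, det_smul, det_σ h2, Fintype.card_fin] at e3
    rcases sq_eq_one_iff.1 (show (c ^ 11 * (Φ ω).det) ^ 2 = 1 by grind) with e | e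
    · exact ⟨c, e1, by simpa using e⟩
    · exact ⟨-c, by simpa using e1, by simp only [det_smul, Fintype.card_fin]; linear_combination -e⟩
  have hy : Hy p ω (normalizer (R : Set (GL (Fin 11) F)) ⊓ Geo.specialLinear (Fin 11) F) :=
    { prime := hp, char := inferInstance, finF := inferInstance, cd := cd, om := h
      hρ := nrm _ _ _ (det_ρ o7) r1 (om1.mul r2) rfl (by rw [ρτ o7]; simp)
      hτ := nrm _ _ _ det_τ ((om1.pow 10).mul r1) r2 (by rw [τρ o7]; simp [_root_.smul_pow]) rfl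
      hu := nrm _ _ _ (det_uu o7) r1 ((r1.mul r2).mul r1) uρ (uτ o7)
      hσ := nrm _ _ _ (det_σ h2) ((r1.pow 10).congr (ρ_pow 10)) (r2.inv ττ') (σρ o7) στ
      hδ := nrm _ _ _ det_δ ((r1.pow 4).congr (ρ_pow 4)) ((r2.mul r2).mul r2) (δρ o7) δτ
      hφ := ⟨c, c1, nrm _ _ _ c2 (r2.inv ττ') r1
        (by rw [smul_mul_assoc, mul_smul_comm, Φρ o7]) (by rw [smul_mul_assoc, mul_smul_comm, Φτ o7])⟩
      det := fun g hg => (sl g).1 hg.2 }
  refine ⟨?_, fun M hM hN ⟨g, hg, hg'⟩ => ?_⟩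
  · let t : GL (Fin 11) F := GeneralLinearGroup.mkOfDetNeZero (transvection 0 1 1)
      (by simp [det_transvection_of_ne])
    refine ⟨t, (sl t).2 (det_transvection_of_ne _ _ (by decide) _), fun ht => ?_⟩
    obtain ⟨r, hr, e⟩ := id r1
    obtain ⟨a, ha⟩ := tw _ _ (InM.of ((mem_normalizer_iff.1 ht r).1 hr)) r1
    have e1 : (t⁻¹).1 = transvection 0 1 (-1) := Units.inv_eq_of_mul_eq_one_right (by
      show transvection _ _ _ * _ = _
      simp [transvection_mul_transvection_same])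
    have e2 : t.1 = transvection 0 1 1 := rfl
    simp only [Tw, Units.val_mul, e, e1, e2] at ha
    have a1 := congrFun (congrFun ha 0) 0
    have a2 := congrFun (congrFun ha 0) 1
    simp [ρ, mul_apply, vecMul, dotProduct, Fin.sum_univ_succ, transvection, single_apply,
      one_apply, diagonal_apply] at a1 a2
    rw [← a1] at a2
    exact om_pow h h7 (k := 1) (by norm_num) (sub_eq_zero.1 (pow_eq_zero_iff two_ne_zero |>.1
      (by linear_combination a2)))
  by_contra hn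
  have nr := main (hy.mono (fun g hg => hN g hg.2 hg.1) fun g hg => (sl g).1 (hM hg))
    (fun k => hn fun g hg => inM_iff.1 (k _ ((sl g).1 hg))) g hg
  have gd := (sl g).1 (hM hg)
  have key : ∀ X, X = ρ ω ∨ X = τ → InM R (g.1 * X * (g⁻¹).1) := fun X hX => by
    obtain ⟨a, ha⟩ := nr X hX _ (Or.inl rfl)
    obtain ⟨b, hb⟩ := nr X hX _ (Or.inr rfl)
    have d : (g.1 * X * (g⁻¹).1).det = 1 := by
      rw [det_units_conj]; rcases hX with rfl | rfl
      exacts [det_ρ o7, det_τ]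
    obtain ⟨m, n, l, e⟩ := pauli h h7 (by rw [d]; exact one_ne_zero) ha hb
    rw [e] at d ⊢
    obtain ⟨k, rfl⟩ := root h h7 (c := l) (by simpa [det_ρ o7, det_τ] using d)
    exact ((om1.pow k).mul ((r1.pow m).mul (r2.pow n))).congr (by simp [_root_.smul_pow])
  exact hg' (inM_iff.1 (nrm _ _ _ gd (key _ (Or.inl rfl)) (key _ (Or.inr rfl)) (by simp) (by simp))).1

theorem frame {x y : M11 F} (hx : x ^ 11 = 1) (hy : y ^ 11 = 1) (hxy : Tw x y ω) :
    ∃ P : GL (Fin 11) F, x * P.1 = P.1 * ρ ω ∧ y * P.1 = P.1 * τ := by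
  have o7 := om11 h
  have y1 : ∀ n (v : Fin 11 → F), v ≠ 0 → (y ^ n) *ᵥ v ≠ 0 := fun n v hv e => hv (by
    have := congrArg ((y ^ (10 * n)) *ᵥ ·) e
    simp only [mulVec_mulVec, ← pow_add, show 10 * n + n = 11 * n by ring] at this
    simpa [pow_mul, hy] using this)
  obtain ⟨v, v0, hv⟩ : ∃ v : Fin 11 → F, v ≠ 0 ∧ x *ᵥ v = v := by
    by_contra! hcon
    let E : F → M11 F := fun a => 1 + a • x + a ^ 2 • x ^ 2 + a ^ 3 • x ^ 3 + a ^ 4 • x ^ 4 + a ^ 5 • x ^ 5 +
      a ^ 6 • x ^ 6 + a ^ 7 • x ^ 7 + a ^ 8 • x ^ 8 + a ^ 9 • x ^ 9 + a ^ 10 • x ^ 10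
    have e0 : E 1 = 0 := H7.mat_eq_zero_of_mulVec fun v => by_contra fun h0 => hcon _ h0 (by
      rw [mulVec_mulVec]
      congr 1
      simp only [E, one_pow, one_smul, mul_add, ← pow_succ', mul_one, ← sq, hx]
      abel)
    have e1 : ∀ a, E a = 0 → E (a * ω) = 0 := fun a ha => by
      have : y * E (a * ω) = E a * y := by
        simp only [E, mul_add, add_mul, mul_smul_comm, smul_mul_assoc, (hxy.pow _ :), (hxy :), smul_smul,
          mul_one, one_mul, mul_pow, show ∀ n, x ^ n * y = _ from fun n => hxy.pow n,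
          show x * y = _ from hxy]
      have := congrArg (y ^ 10 * ·) this
      simpa [ha, ← mul_assoc, ← pow_succ, hy] using this
    have e3 : ∀ n, E (ω ^ n) = 0 := fun n => by
      induction n with
      | zero => rwa [pow_zero]
      | succ n ih => rw [pow_succ]; exact e1 _ ih
    have e2 : (11 : F) • (1 : M11 F) = E (ω ^ 0) + E (ω ^ 1) + E (ω ^ 2) + E (ω ^ 3) + E (ω ^ 4) + E (ω ^ 5) +
        E (ω ^ 6) + E (ω ^ 7) + E (ω ^ 8) + E (ω ^ 9) + E (ω ^ 10) := by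
      simp only [E]
      match_scalars <;> grind
    simp only [e3] at e2
    simpa [h7] using congrFun (congrFun e2 0) 0
  have k1 : ∀ n : ℕ, x *ᵥ ((y ^ n) *ᵥ v) = ω ^ n • ((y ^ n) *ᵥ v) := fun n => by
    induction n with
    | zero => simpa using hv
    | succ n ih =>
      rw [pow_succ', ← mulVec_mulVec, mulVec_mulVec, hxy, smul_mulVec, ← mulVec_mulVec, ih, mulVec_smul,
        smul_smul, pow_succ']
  let P : M11 F := of fun i j => ((y ^ (j : ℕ)) *ᵥ v) i
  have hP : IsUnit P := linearIndependent_cols_iff_isUnit.1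
    (Module.End.eigenvectors_linearIndependent' (toLin' x) (fun j : Fin 11 => ω ^ (j : ℕ))
      (fun i j e => by_contra fun hij => om_ne h h7 (by omega) e) _ fun j =>
        ⟨Module.End.mem_eigenspace_iff.2 (k1 j), y1 j v v0⟩)
  refine ⟨hP.unit, ?_, ?_⟩ <;> rw [hP.unit_spec] <;> ext i j
  · rw [ρ_eq, mul_diagonal, mul_comm]
    exact congrFun (k1 j) i
  · have : (y * P) i j = ((y ^ ((j : ℕ) + 1)) *ᵥ v) i := by
      rw [pow_succ', ← mulVec_mulVec]; rfl
    rw [this, mulτ]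
    show _ = ((y ^ ((j + 1 : Fin 11) : ℕ)) *ᵥ v) i
    rw [pow_eq_pow_mod _ hy, show ((j : ℕ) + 1) % 11 = (j + 1 : Fin 11) by
      clear this; revert j; decide]

omit h h7 in
theorem _root_.Cfsg.Agent.H8.C11.sl11_of_core [Fintype F] (main : ∀ p, Core11 F p)
    (hp : ∃ p : ℕ, p.Prime ∧ CharP F p ∧ ((Fintype.card F = p ∧ p % 11 = 1) ∨
      (Fintype.card F = p ^ 5 ∧ (p % 11 = 3 ∨ p % 11 = 4 ∨ p % 11 = 5 ∨ p % 11 = 9)))) (R : Subgroup (GL (Fin 11) F))
    (hR : Geo.IsLinearSymplecticTypeData 11 R) : Geo.IsMaximalIn (Geo.specialLinear (Fin 11) F)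
      (Geo.subgroupNormalizer R ⊓ Geo.specialLinear (Fin 11) F) := by
  obtain ⟨p, hp, hc, hF⟩ := hp
  have := Fact.mk (show Nat.Prime 11 by norm_num)
  have := Fact.mk hp
  have hZ : Nat.card (center R) = 11 := by
    obtain ⟨_, _, -, -, ⟨-, -, hZ, -⟩ | ⟨h, -⟩ | ⟨h, -⟩⟩ := hR.field <;> omega
  have habs : H7.AbsIrr R := H7.absIrr_iff.2 hR.absIrred
  have hexp : Monoid.exponent R = 11 := hR.symplecticType.exponent_eq
  have r5 : ∀ g ∈ R, g ^ 11 = 1 := fun g hg =>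
    congrArg Subtype.val (hexp ▸ Monoid.pow_exponent_eq_one (⟨g, hg⟩ : R))
  have cm : ∀ x ∈ R, ∀ y ∈ R, x * y * x⁻¹ * y⁻¹ ∈ Geo.scalars (Fin 11) F := fun x hx y hy =>
    habs.mem_scalars fun g hg => (congrArg Subtype.val (mem_center_iff.1 (H1.T3.symp_comm
      hR.symplecticType.pGroup hR.symplecticType.cyclic_of_characteristic (hexp.trans hZ.symm)
        ⟨x, hx⟩ ⟨y, hy⟩) ⟨g, hg⟩)).symm
  obtain ⟨x, hx, y, hy, c, c1, c5, e⟩ := H7.exists_root_of_comm (by simp) habs cm (r := 11)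
    fun x hx => by rw [r5 x hx]; exact one_mem _
  have c2 : (c : F) - 1 ≠ 0 := fun h => c1 (Units.ext (sub_eq_zero.1 h))
  have c3 : (c : F) ^ 11 = 1 := by simpa using congrArg Units.val c5
  have h : Om11 (c : F) := mul_left_cancel₀ c2 (by linear_combination c3)
  have ne : ∀ n : ℕ, n.Prime → n ≠ p → (n : F) ≠ 0 := fun n hn hne h =>
    hne ((Nat.prime_dvd_prime_iff_eq hp hn).1 ((CharP.cast_eq_zero_iff F p n).1 h)).symm
  have h7 : (11 : F) ≠ 0 := by exact_mod_cast ne 11 (by norm_num) (by omega)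
  obtain ⟨P, p1, p2⟩ := frame h h7 (x := x.1) (y := y.1) (by simpa using congrArg Units.val (r5 x hx))
    (by simpa using congrArg Units.val (r5 y hy)) (by simpa [Tw] using congrArg Units.val e)
  let φ : GL (Fin 11) F ≃* GL (Fin 11) F := MulAut.conj P⁻¹
  have hφ : ∀ g, φ g = P⁻¹ * g * P := fun g => by simp [φ]
  obtain ⟨k1, k2⟩ := std h h7 (main p) hp (by rwa [Nat.card_eq_fintype_card])
    (by exact_mod_cast ne 2 Nat.prime_two (by omega)) (R := R.map φ.toMonoidHom)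
    ⟨_, ⟨x, hx, rfl⟩, by simp [hφ, mul_assoc, p1]⟩ ⟨_, ⟨y, hy, rfl⟩, by simp [hφ, mul_assoc, p2]⟩ (by
      rintro _ _ ⟨_, ⟨a, ha, rfl⟩, rfl⟩ ⟨_, ⟨b, hb, rfl⟩, rfl⟩
      obtain ⟨d, hd⟩ := H7.exists_comm_scal (cm a ha b hb)
      refine ⟨d, ?_⟩
      have := congrArg (fun g => (φ g).1) hd
      simp only [map_mul] at this
      simpa [Tw, hφ, H7.scalGL_comm, mul_assoc] using this)
  refine H9.Sp.isMaximalIn_transport φ _ _ _ (· ∈ normalizer (R.map φ.toMonoidHom : Set _))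
    (fun g => by simp [Geo.specialLinear, hφ]) (fun g _ => ?_) k1 k2
  rw [← map_equiv_normalizer_eq, mem_map_equiv]
  simp [Geo.subgroupNormalizer]

end Cfsg.Agent.H8.C11.Br
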