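import Cfsg.Agent.H8.C11.Xb
import Cfsg.Agent.H8.C11.Br
import Cfsg.Agent.H7.C11.Odd
import Cfsg.Agent.H4.C11.I
import Cfsg.Agent.H4.C11.F1
import Cfsg.Agent.H4.C11.F2
import Cfsg.Agent.H4.C11.B2
import Cfsg.Agent.H5.C11.RedX
import Cfsg.Agent.H9.C11.Ga

/-! The normaliser of `11^{1+2}` in `SL₁₁(q)`: assembly. -/

set_option autoImplicit false
set_option linter.unusedSimpArgs false
set_option linter.unusedVariables false

namespace Cfsg.Agent.H8.C11

open Matrix Cfsg.Agent.H5.T3 Cfsg.Agent.H5.C5 Cfsg.Agent.L.X11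

variable {F : Type*} [Field F] {ω : F} {M : Subgroup (GL (Fin 11) F)} {p : ℕ}

theorem xs_X {C : Type*} [Group C] {g : F} {π : C →* GL (Fin 5) F} {ψ : C →* GL (Fin 6) F} {s u f : C}
    (h : XS p ω g π ψ s u f) (c : C) (hc : InY u f c) (c2 : c * c = 1 ∨ c * c = s) : c = 1 ∨ c = s :=
  H5.C11.X_of h (fun x hx => by
    obtain ⟨_, ⟨k, rfl⟩, hk⟩ := H9.C11.gamma h.fh h.hg (G := π.range) ⟨u, rfl⟩ ⟨f, rfl⟩ ⟨x, rfl⟩
      h.hu h.hf hx
    exact ⟨k, hk⟩) (fun ρ s κ a b c d e => h.beta a b (by rcases c with rfl | rfl <;> simp) d e) c hc c2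

/-- diagonal matrices with prescribed exponents -/
def Dg (ω : F) (M : Subgroup (GL (Fin 11) F)) (e : Fin 11 → ℕ) : Prop :=
  InM M (diagonal fun i => ω ^ e i)

theorem Hy.dg_sh (h : Hy p ω M) {e : Fin 11 → ℕ} (he : Dg ω M e) (s : Fin 11) :
    Dg ω M fun i => e (i + s) := by
  have k : ∀ n : ℕ, Dg ω M fun i => e ((· + 10)^[n] i) := fun n => by
    induction n with
    | zero => exact he
    | succ n ih => exact (h.cτ ih).congr (by rw [H7.C11.τdτ]; rfl)
  have := k (10 * s : Fin 11)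
  simpa only [show ∀ i : Fin 11, (· + 10)^[(10 * s : Fin 11)] i = i + s by clear this; revert s; decide] using this

theorem Hy.dg_sum (h : Hy p ω M) {e : Fin 11 → ℕ} (he : Dg ω M e) (c : Fin 11 → ℕ) (S : Finset (Fin 11)) :
    Dg ω M fun i => ∑ s ∈ S, c s * e (i + s) := by
  induction S using Finset.induction_on with
  | empty => exact (he.pow 0).congr (by simp)
  | insert s S hs ih =>
    refine (((h.dg_sh he s).pow (c s)).mul ih).congr ?_
    rw [diagonal_pow, diagonal_mul_diagonal]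
    congr 1; ext i
    simp only []
    rw [Finset.sum_insert hs, pow_add, Pi.pow_apply, ← pow_mul, mul_comm (c s)]

/-- exponents of the homologies -/
def hx (k : Fin 5) (i : Fin 11) : ℕ := if i = 0 then 9 else if ev i = k.succ then 1 else 0

theorem Hy.dg_h (h : Hy p ω M) (he : Dg ω M fun i => (i : ℕ) ^ 8 % 11) (k : Fin 5) : Dg ω M (hx k) :=
  (h.dg_sum he ((![![5, 2, 4, 5, 5, 1, 2, 8, 10, 0, 0], ![1, 7, 3, 3, 0, 8, 6, 5, 4, 0, 0], ![1, 7, 3, 1, 3, 1, 10, 8, 2, 0, 0], ![6, 5, 10, 3, 7, 1, 9, 9, 10, 0, 0], ![7, 6, 1, 1, 10, 2, 5, 8, 5, 0, 0]] : Fin 5 → Fin 11 → ℕ) k) Finset.univ).congr (by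
    congr 1; ext i; exact om_congr h.one11 (by revert k i; decide +kernel))

theorem Hy.uq (h : Hy p ω M) (hn : ¬ SLin M) : UQ M := by
  have h2 := h.two
  haveI := h.fin
  obtain ⟨s, hs⟩ := h.exσ
  have kU := fun g c e => (H7.C11.kerU h hn g (a := c) e).1
  obtain ⟨g, π, u0, f0, X⟩ := h.xs kU (H7.C11.kerU1 h hn)
    (fun g a e => let ⟨b, hb, _⟩ := H7.C11.kerV h hn g e; ⟨b, hb⟩) hs
  have iv : ∀ t : CC M, t * t = 1 → t ≠ 1 → t ≠ s → (ru h2 M t).1.det = -1 := fun t a b c => by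
    have e := H4.C11.invol (by simp) h2 (rv h2 M) X.cen X.ψσ X.σ2 X.ff X.z2z2 X.e12
      (fun g a b => xs_X X g ⟨a, b⟩) a b c
    have := CC_det h2 t
    rw [h.det _ t.2.1, e] at this
    linear_combination this
  have uq : ∀ t : CC M, t * t = 1 → (ru h2 M t).1.det = 1 → t = 1 ∨ t = s := fun t a b => by
    by_contra! k
    exact h2 (by linear_combination iv t a k.1 k.2 - b)
  intro c hc e c2
  by_contra! k
  obtain ⟨u, u0, u1, u2⟩ := h.exu
  obtain ⟨d, -, d1, -⟩ := h.exδ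
  obtain ⟨v, v1, v2, v3⟩ := H4.C11.f1 (ru h2 M) (rv h2 M) X.fh (H7.C11.inj h) u d s ⟨c, mem_CC h2 hc e⟩
    u1 u2 (fun i j => by rw [d1]; rfl) X.cen X.σ2 (Units.ext (ru_σ h2 hs)) kU
    (fun g e => (H7.C11.kerU1 h hn g e).imp (fun e => Subtype.ext (Units.ext e))
      fun e => Subtype.ext (Units.ext (e.trans hs.symm))) uq
    (iv _ (Subtype.ext (Units.ext c2)) (fun e => k.1 (congrArg (·.1.1) e))
      fun e => k.2 ((congrArg (·.1.1) e).trans hs))
  obtain ⟨D, hD, D1⟩ := H5.C11.T_oddA h hn v (u0 ▸ congrArg (·.1.1) v1) (by decide) v2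
  have D2 : ∀ k a, D (pl k a) = ω ^ (![1, 5, 3, 4, 9] : Fin 5 → ℕ) k := fun k a => by
    have := congrFun (diagonal_injective ((ru_diag h2 hD).symm.trans v3)) k
    fin_cases a
    · exact this
    · rw [← this, ← D1 (pl k 0), pl_neg]; rfl
  have D0 : D 0 = 1 := by
    have := h.det _ v.2.1
    have w := h.one11
    rw [hD, det_diagonal, show ∏ i, D i = D 0 * ∏ k, (D (pl k 0) * D (pl k 1)) from
      sum_pl (A := Additive F) D] at this
    simp only [D2, Fin.prod_univ_succ] at this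
    simp at this
    linear_combination this - D 0 * (ω ^ 33 + ω ^ 22 + ω ^ 11 + 1) * w
  have h8 : Dg ω M fun i => (i : ℕ) ^ 8 % 11 := (InM.of v.2.1).congr (by
    rw [hD]; congr 1; ext i
    rcases pl_cases i with rfl | ⟨k, a, rfl⟩
    · simpa using D0
    · rw [D2]; congr 1; revert k a; decide)
  choose hh eh using fun k => ex_CC h2 (h.dg_h h8 k) (diag_comm_σ fun i => by
    congr 1; revert k i; decide)
  obtain ⟨f, -, f1, f2, f3, -⟩ := h.exφ'
  refine H4.C11.f2 (ru h2 M) (rv h2 M) X.fh s X.ψσ uq hh (fun k => ?_) (fun k => ⟨_, rv_diag h2 (eh k), ?_⟩)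
    f f1 f2 f3
  · rw [ru_diag h2 (eh k)]; congr 1; ext l
    by_cases e : l = k
    · subst e; simp [hx, pl_ne, ev_pl]
    · simp [hx, pl_ne, ev_pl, e]
  · intro i i0 i1
    obtain ⟨l, rfl⟩ := Fin.exists_succ_eq.2 i0
    simp [hx, pl_ne, ev_pl, show l ≠ k from fun e => i1 (by rw [e])]

theorem core11 (F : Type*) [Field F] (p : ℕ) : Core11 F p := fun h hn =>
  endgame11 h (h.uq hn) (H7.C11.odd h hn)

end Cfsg.Agent.H8.C11
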