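import Cfsg.Agent.H5.C5.Blk

/-! The model of the normaliser of `11^{1+2}` in `SL₁₁(q)`: set-up. -/

set_option autoImplicit false
set_option linter.unusedSimpArgs false
set_option linter.unusedSectionVars false
set_option linter.unusedVariables false

namespace Cfsg.Agent.H8.C11

open Matrix Cfsg.Agent.H5.T3 Cfsg.Agent.H5.C5

variable {F : Type*} [Field F]

abbrev M11 (F : Type*) := Matrix (Fin 11) (Fin 11) F
abbrev M6 (F : Type*) := Matrix (Fin 6) (Fin 6) F
abbrev M5 (F : Type*) := Matrix (Fin 5) (Fin 5) F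
abbrev M2 (F : Type*) := Matrix (Fin 2) (Fin 2) F

/-- the matrix sending `e_j` to `e • e_{f j}` -/
def pm {R : Type*} [Zero R] (f : Fin 11 → Fin 11) (e : R) : M11 R := of fun i j => if f j = i then e else 0

def ρ (ω : F) : M11 F := diagonal fun i => ω ^ (i : ℕ)
def uu (ω : F) : M11 F := diagonal fun i => ω ^ ((i : ℕ) ^ 2 % 11)
def τ : M11 F := pm (· + 1) 1
def τ' : M11 F := pm (· + 10) 1
def σ : M11 F := pm (10 * ·) (-1)
def δ : M11 F := pm (3 * ·) 1
def δ' : M11 F := pm (4 * ·) 1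
def Φ (ω : F) : M11 F := of fun i j => ω ^ ((i : ℕ) * j % 11)

/-- the squares `3 ^ k` modulo eleven -/
def sq11 : Fin 5 → Fin 11 := ![1, 3, 9, 5, 4]
/-- the basis `e_{s}, e_{-s}` of the plane `W k`, `s = 3 ^ k` -/
def pl (k : Fin 5) (a : Fin 2) : Fin 11 := ![![1, 10], ![3, 8], ![9, 2], ![5, 6], ![4, 7]] k a

def A0 (F : Type*) [Field F] : Matrix (Fin 11) (Fin 1) F := of fun i _ => if i = 0 then 1 else 0
def B0 (F : Type*) [Field F] : Matrix (Fin 1) (Fin 11) F := of fun _ i => if i = 0 then 1 else 0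
def Ak (F : Type*) [Field F] (k : Fin 5) : Matrix (Fin 11) (Fin 2) F :=
  of fun i a => if i = pl k a then 1 else 0
def Bk (F : Type*) [Field F] (k : Fin 5) : Matrix (Fin 2) (Fin 11) F :=
  of fun a i => if i = pl k a then 1 else 0
def Au (F : Type*) [Field F] : Matrix (Fin 11) (Fin 5) F :=
  of fun i k => if i = pl k 0 then 1 else if i = pl k 1 then -1 else 0
def Bu (F : Type*) [Field F] : Matrix (Fin 5) (Fin 11) F :=
  of fun k i => if i = pl k 0 then 2⁻¹ else if i = pl k 1 then -2⁻¹ else 0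
/-- the index of the even basis vector involving `e_i` -/
def ev : Fin 11 → Fin 6 := ![0, 1, 3, 2, 5, 4, 4, 5, 2, 3, 1]
def Av (F : Type*) [Field F] : Matrix (Fin 11) (Fin 6) F := of fun i k => if ev i = k then 1 else 0
def Bv (F : Type*) [Field F] : Matrix (Fin 6) (Fin 11) F :=
  of fun k i => if ev i = k then (if i = 0 then 1 else 2⁻¹) else 0

/-- block matrix for `W₀ = ⟨e₀⟩` and the planes `W k = ⟨e_{pl k 0}, e_{pl k 1}⟩` -/
def bk (a : F) (X : Fin 5 → M2 F) : M11 F := A0 F * !![a] * B0 F + ∑ k, Ak F k * X k * Bk F k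

/-- entrywise computation -/
macro "m11" : tactic => `(tactic|
  simp [← Matrix.ext_iff, Fin.forall_fin_succ, pm, ρ, τ, τ', uu, σ, δ, δ', Φ, pl, ev, A0, B0, Ak, Bk,
    Au, Bu, Av, Bv, bk, Matrix.mul_apply, Matrix.vecMul, dotProduct, Fin.sum_univ_succ, Matrix.diagonal_apply,
    Matrix.sum_apply, Matrix.transvection, Matrix.single_apply, Matrix.one_apply])

/-- entrywise computation, one goal for each entry -/
macro "m11x" : tactic => `(tactic| (ext i j; fin_cases i <;> fin_cases j <;>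
  simp [pm, ρ, τ, τ', uu, σ, δ, δ', Φ, pl, ev, A0, B0, Ak, Bk, Au, Bu, Av, Bv, bk,
    Matrix.mul_apply, Matrix.vecMul, dotProduct, Fin.sum_univ_succ, Matrix.diagonal_apply,
    Matrix.sum_apply, Matrix.one_apply]))

theorem mul_pm {m : Type*} (X : Matrix m (Fin 11) F) (f : Fin 11 → Fin 11) (e : F) (i : m) (j : Fin 11) :
    (X * pm f e : Matrix m (Fin 11) F) i j = X i (f j) * e := by
  simp [pm, Matrix.mul_apply]

theorem pm_mul {m : Type*} (X : Matrix (Fin 11) m F) {f g : Fin 11 → Fin 11}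
    (hf : ∀ i j, f j = i ↔ j = g i) (e : F) (i : Fin 11) (j : m) :
    (pm f e * X : Matrix (Fin 11) m F) i j = e * X (g i) j := by
  simp [pm, Matrix.mul_apply, hf]

theorem pm_pm (f g : Fin 11 → Fin 11) (a b : F) : pm f a * pm g b = pm (fun j => f (g j)) (a * b) := by
  ext i j; rw [mul_pm]; simp [pm]

theorem pm_one {f : Fin 11 → Fin 11} (hf : ∀ j, f j = j) : pm f (1 : F) = 1 := by
  ext i j; simp [pm, hf, one_apply, eq_comm]

theorem δδ' : (δ * δ' : M11 F) = 1 := by rw [δ, δ', pm_pm, one_mul, pm_one (by decide)]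
theorem δ'δ : (δ' * δ : M11 F) = 1 := by rw [δ, δ', pm_pm, one_mul, pm_one (by decide)]
theorem ττ' : (τ * τ' : M11 F) = 1 := by rw [τ, τ', pm_pm, one_mul, pm_one (by decide)]
theorem τ'τ : (τ' * τ : M11 F) = 1 := by rw [τ, τ', pm_pm, one_mul, pm_one (by decide)]
theorem σσ : (σ * σ : M11 F) = 1 := by
  rw [σ, pm_pm, neg_mul_neg, one_mul, pm_one (by decide)]
theorem ρ_eq (ω : F) : ρ ω = diagonal fun i : Fin 11 => ω ^ (i : ℕ) := rfl
theorem uu_eq (ω : F) : uu ω = diagonal fun i : Fin 11 => ω ^ ((i : ℕ) ^ 2 % 11) := rfl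

theorem mulσ {m : Type*} (X : Matrix m (Fin 11) F) (i : m) (j : Fin 11) :
    (X * (σ : M11 F) : Matrix m (Fin 11) F) i j = -X i (10 * j) := by rw [σ, mul_pm, mul_neg_one]
theorem σmul {m : Type*} (X : Matrix (Fin 11) m F) (i : Fin 11) (j : m) :
    ((σ : M11 F) * X : Matrix (Fin 11) m F) i j = -X (10 * i) j := by
  rw [σ, pm_mul (g := (10 * ·)) _ (by decide), neg_one_mul]
theorem mulτ {m : Type*} (X : Matrix m (Fin 11) F) (i : m) (j : Fin 11) :
    (X * (τ : M11 F) : Matrix m (Fin 11) F) i j = X i (j + 1) := by rw [τ, mul_pm, mul_one]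
theorem τmul {m : Type*} (X : Matrix (Fin 11) m F) (i : Fin 11) (j : m) :
    ((τ : M11 F) * X : Matrix (Fin 11) m F) i j = X (i + 10) j := by
  rw [τ, pm_mul (g := (· + 10)) _ (by decide), one_mul]
theorem mulτ' {m : Type*} (X : Matrix m (Fin 11) F) (i : m) (j : Fin 11) :
    (X * (τ' : M11 F) : Matrix m (Fin 11) F) i j = X i (j + 10) := by rw [τ', mul_pm, mul_one]
theorem τ'mul {m : Type*} (X : Matrix (Fin 11) m F) (i : Fin 11) (j : m) :
    ((τ' : M11 F) * X : Matrix (Fin 11) m F) i j = X (i + 1) j := by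
  rw [τ', pm_mul (g := (· + 1)) _ (by decide), one_mul]
theorem mulδ {m : Type*} (X : Matrix m (Fin 11) F) (i : m) (j : Fin 11) :
    (X * (δ : M11 F) : Matrix m (Fin 11) F) i j = X i (3 * j) := by rw [δ, mul_pm, mul_one]
theorem δmul {m : Type*} (X : Matrix (Fin 11) m F) (i : Fin 11) (j : m) :
    ((δ : M11 F) * X : Matrix (Fin 11) m F) i j = X (4 * i) j := by
  rw [δ, pm_mul (g := (4 * ·)) _ (by decide), one_mul]
theorem mulδ' {m : Type*} (X : Matrix m (Fin 11) F) (i : m) (j : Fin 11) :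
    (X * (δ' : M11 F) : Matrix m (Fin 11) F) i j = X i (4 * j) := by rw [δ', mul_pm, mul_one]
theorem δ'mul {m : Type*} (X : Matrix (Fin 11) m F) (i : Fin 11) (j : m) :
    ((δ' : M11 F) * X : Matrix (Fin 11) m F) i j = X (3 * i) j := by
  rw [δ', pm_mul (g := (3 * ·)) _ (by decide), one_mul]

theorem pl_inj {k l : Fin 5} {a b : Fin 2} : pl k a = pl l b ↔ k = l ∧ a = b := by
  revert k l a b; decide
theorem pl_ne (k : Fin 5) (a : Fin 2) : pl k a ≠ 0 := by revert k a; decide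
theorem pl_cases (i : Fin 11) : i = 0 ∨ ∃ k a, i = pl k a := by revert i; decide

theorem BA0 : (B0 F * A0 F : Matrix (Fin 1) (Fin 1) F) = 1 := by
  ext i j; simp [A0, B0, mul_apply, Subsingleton.elim i j, one_apply]
theorem BAk (k : Fin 5) : (Bk F k * Ak F k : M2 F) = 1 := by
  ext i j; simp [Ak, Bk, mul_apply, pl_inj, one_apply, eq_comm]

/-- entries of the restriction to a plane -/
theorem res_k (k l : Fin 5) (X : M11 F) (a b : Fin 2) :
    (Bk F k * X * Ak F l : M2 F) a b = X (pl k a) (pl l b) := by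
  simp [Ak, Bk, mul_apply]

theorem res_0 (X : M11 F) (a b : Fin 1) : (B0 F * X * A0 F : Matrix (Fin 1) (Fin 1) F) a b = X 0 0 := by
  simp [A0, B0, mul_apply]

theorem ext_k (k : Fin 5) (X : M2 F) (i j : Fin 11) : (Ak F k * X * Bk F k : M11 F) i j =
    ∑ a, ∑ b, if i = pl k a ∧ j = pl k b then X a b else 0 := by
  simp only [Ak, Bk, mul_apply, of_apply, Fin.sum_univ_two, ite_and]
  split_ifs <;> simp [add_add_add_comm]

theorem bk00 (a : F) (X : Fin 5 → M2 F) : bk a X 0 0 = a := by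
  rw [bk, Matrix.add_apply, Matrix.sum_apply]; simp only [ext_k]; simp [ (pl_ne _ _).symm, A0, B0, mul_apply]
theorem bk0k (a : F) (X : Fin 5 → M2 F) (k : Fin 5) (b : Fin 2) : bk a X 0 (pl k b) = 0 := by
  rw [bk, Matrix.add_apply, Matrix.sum_apply]; simp only [ext_k]; simp [ (pl_ne _ _).symm, pl_ne, A0, B0, mul_apply]
theorem bkk0 (a : F) (X : Fin 5 → M2 F) (k : Fin 5) (b : Fin 2) : bk a X (pl k b) 0 = 0 := by
  rw [bk, Matrix.add_apply, Matrix.sum_apply]; simp only [ext_k]; simp [ (pl_ne _ _).symm, pl_ne, A0, B0, mul_apply]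
theorem bkkk (a : F) (X : Fin 5 → M2 F) (k l : Fin 5) (b c : Fin 2) :
    bk a X (pl k b) (pl l c) = if k = l then X k b c else 0 := by
  rw [bk, Matrix.add_apply, Matrix.sum_apply]
  simp only [ext_k, pl_inj]
  rw [Finset.sum_eq_single k (fun m _ hm => by simp [hm.symm]) (by simp)]
  split_ifs with e
  · subst e; simp [A0, B0, mul_apply, pl_ne, ite_and]
  · simp [A0, B0, mul_apply, pl_ne, Ne.symm e]

/-- two matrices agree when they agree on the blocks -/
theorem ext_pl {X Y : M11 F} (h0 : X 0 0 = Y 0 0) (h1 : ∀ k a, X 0 (pl k a) = Y 0 (pl k a))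
    (h2 : ∀ k a, X (pl k a) 0 = Y (pl k a) 0)
    (h3 : ∀ k a l b, X (pl k a) (pl l b) = Y (pl k a) (pl l b)) : X = Y := by
  ext i j
  rcases pl_cases i with rfl | ⟨k, a, rfl⟩ <;> rcases pl_cases j with rfl | ⟨l, b, rfl⟩
  exacts [h0, h1 _ _, h2 _ _, h3 _ _ _ _]

theorem bk_one : bk (1 : F) (fun _ => 1) = 1 := ext_pl (by simp [bk00]) (by simp [bk0k, (pl_ne _ _).symm])
  (by simp [bkk0, pl_ne]) fun k a l b => by simp [bkkk, one_apply, pl_inj, ite_and]

theorem sum6 : (A0 F * B0 F + ∑ k, Ak F k * Bk F k : M11 F) = 1 := by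
  rw [← bk_one, bk, show (!![1] : Matrix (Fin 1) (Fin 1) F) = 1 by
    ext i j; simp [Subsingleton.elim i j, one_apply]]
  simp

/-- `ω` is a primitive eleventh root of unity (when `11 ≠ 0`) -/
abbrev Om11 (ω : F) : Prop :=
  ω ^ 10 + ω ^ 9 + ω ^ 8 + ω ^ 7 + ω ^ 6 + ω ^ 5 + ω ^ 4 + ω ^ 3 + ω ^ 2 + ω + 1 = 0

theorem om11 {ω : F} (h : Om11 ω) : ω ^ 11 = 1 := by linear_combination (ω - 1) * h

theorem om0 {ω : F} (h : Om11 ω) : ω ≠ 0 := by rintro rfl; simp [Om11] at h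

theorem om_pow {ω : F} (h : Om11 ω) (h7 : (11 : F) ≠ 0) {k : ℕ} (hk : k % 11 ≠ 0) : ω ^ k ≠ 1 := by
  intro e
  have := pow_gcd_eq_one.2 ⟨e, om11 h⟩
  rw [show Nat.gcd k 11 = 1 from Nat.coprime_comm.1 ((Nat.Prime.coprime_iff_not_dvd (by norm_num)).2
    fun d => hk (Nat.mod_eq_zero_of_dvd d)), pow_one] at this
  subst this
  exact h7 (by linear_combination h)

theorem om_ne {ω : F} (h : Om11 ω) (h7 : (11 : F) ≠ 0) {k l : ℕ} (hk : (k + 10 * l) % 11 ≠ 0) :
    ω ^ k ≠ ω ^ l := fun e => om_pow h h7 hk (by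
  rw [pow_add, e, ← pow_add, show l + 10 * l = 11 * l by ring, pow_mul, om11 h, one_pow])

theorem om_mod {ω : F} (h : ω ^ 11 = 1) (k : ℕ) : ω ^ (k % 11) = ω ^ k := (pow_eq_pow_mod k h).symm

theorem om_congr {ω : F} (h : ω ^ 11 = 1) {k l : ℕ} (e : k % 11 = l % 11) : ω ^ k = ω ^ l := by
  rw [← om_mod h k, e, om_mod h]

theorem om_sum {ω : F} (h : Om11 ω) (m : ℕ) :
    ∑ k : Fin 11, ω ^ (m * k) = if m % 11 = 0 then 11 else 0 := by
  have w := om11 h
  simp only [pow_mul, ← om_mod w m]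
  have := Nat.mod_lt m (by norm_num : 0 < 11)
  generalize m % 11 = r at *
  simp only [← pow_mul, ← om_mod w (r * _)]
  interval_cases r <;> simp [Fin.sum_univ_succ] <;> first | linear_combination h | norm_num

theorem ΦΦ {ω : F} (h : Om11 ω) : Φ ω * Φ ω = (-11 : F) • σ := by
  ext i j
  have w := om11 h
  have : ∀ k : Fin 11, Φ ω i k * Φ ω k j = ω ^ ((i + j : ℕ) * k) := fun k => by
    simp only [Φ, of_apply, om_mod w, ← pow_add]; congr 1; ring
  simp only [mul_apply, this, om_sum h, σ, pm, Matrix.smul_apply, of_apply, smul_eq_mul,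
    show ∀ i j : Fin 11, ((i + j : ℕ) % 11 = 0) ↔ (10 * j = i) by decide]
  split_ifs <;> simp

/-- the standing hypotheses on the overgroup `M` -/
structure Hy (p : ℕ) (ω : F) (M : Subgroup (GL (Fin 11) F)) : Prop where
  prime : p.Prime
  char : CharP F p
  finF : Finite F
  cd : (Nat.card F = p ∧ p % 11 = 1) ∨
    (Nat.card F = p ^ 5 ∧ (p % 11 = 3 ∨ p % 11 = 4 ∨ p % 11 = 5 ∨ p % 11 = 9))
  om : Om11 ω
  hρ : InM M (ρ ω)
  hτ : InM M τ
  hu : InM M (uu ω)
  hσ : InM M σ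
  hδ : InM M δ
  hφ : ∃ c : F, 11 * c ^ 2 = -1 ∧ InM M (c • Φ ω)
  det : ∀ g ∈ M, g.1.det = 1

/-- the core maximality statement -/
def Main11 (F : Type*) [Field F] (p : ℕ) : Prop := ∀ {ω : F} {N M : Subgroup (GL (Fin 11) F)},
  Hy p ω N → N ≤ M → (∀ g ∈ M, g.1.det = 1) → (∀ g ∈ M, (∃ a : F, g.1 * ρ ω = a • (ρ ω * g.1)) →
    (∃ b : F, g.1 * τ = b • (τ * g.1)) → g ∈ N) → SLin M ∨ M ≤ N

theorem conj_tv {P Q : M11 F} (h : P * Q = 1) (f : Fin 11 → Fin 11) {e : F} (he : e * e = 1)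
    (h1 : ∀ a i, P a i = if f i = a then e else 0) (h2 : ∀ a i, Q i a = if f i = a then e else 0)
    (i j : Fin 11) (c : F) : P * transvection i j c * Q = transvection (f i) (f j) c := by
  rw [transvection, mul_add, add_mul, Matrix.mul_one, h, transvection]
  congr 1
  ext a b
  have : (P * single i j c * Q : M11 F) a b = P a i * c * Q j b := by
    simp [Matrix.mul_apply, single_apply, ite_and]
  rw [this, h1, h2, single_apply]
  simp only [ite_and]
  split_ifs <;> simp [mul_right_comm, he]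

namespace Hy

variable {p : ℕ} {ω : F} {M : Subgroup (GL (Fin 11) F)} (h : Hy p ω M)
include h

theorem mono {M' : Subgroup (GL (Fin 11) F)} (hM : M ≤ M') (hd : ∀ g ∈ M', g.1.det = 1) : Hy p ω M' :=
  ⟨h.prime, h.char, h.finF, h.cd, h.om, h.hρ.mono hM, h.hτ.mono hM, h.hu.mono hM, h.hσ.mono hM,
    h.hδ.mono hM, let ⟨c, hc, k⟩ := h.hφ; ⟨c, hc, k.mono hM⟩, hd⟩

theorem fin : Finite (GL (Fin 11) F) := by haveI := h.finF; infer_instance

theorem ne_zero {n : ℕ} (hn : n.Prime) (hne : p ≠ n) : (n : F) ≠ 0 := fun e =>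
  haveI := h.char
  hne ((Nat.prime_dvd_prime_iff_eq h.prime hn).1 ((CharP.cast_eq_zero_iff F p n).1 e))

theorem eleven : (11 : F) ≠ 0 := by
  exact_mod_cast h.ne_zero (n := 11) (by norm_num) (by rcases h.cd with k | k <;> omega)

theorem p2 : p ≠ 2 := by rcases h.cd with k | k <;> omega

theorem two : (2 : F) ≠ 0 := by exact_mod_cast h.ne_zero Nat.prime_two h.p2

theorem one11 : ω ^ 11 = 1 := om11 h.om

theorem ne {k l : ℕ} (hk : (k + 10 * l) % 11 ≠ 0) : ω ^ k - ω ^ l ≠ 0 :=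
  sub_ne_zero.2 (om_ne h.om h.eleven hk)

theorem card_sub (k : Subfield F) : k = ⊤ ∨ Nat.card k = p ∧ Nat.card F = p ^ 5 := by
  haveI := h.finF
  haveI := h.char
  haveI := Fact.mk h.prime
  have e := Module.natCard_eq_pow_finrank (K := k) (V := F)
  letI := Fintype.ofFinite k
  obtain ⟨n, -, hn⟩ := FiniteField.card k p
  rw [← Nat.card_eq_fintype_card] at hn
  have t : Module.finrank k F = 1 → k = ⊤ := fun e1 => by
    rw [e1, pow_one] at e
    exact SetLike.coe_injective (Set.eq_univ_of_forall fun x =>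
      ((Function.Injective.bijective_of_nat_card_le Subtype.val_injective e.le).2 x).elim
        fun y hy => hy ▸ y.2)
  rw [hn, ← pow_mul] at e
  rcases h.cd with ⟨k1, -⟩ | ⟨k1, -⟩
  · exact Or.inl (t (Nat.eq_one_of_mul_eq_one_left (Nat.pow_right_injective h.prime.two_le
      (e.symm.trans (k1.trans (pow_one p).symm)))))
  · have e3 := Nat.pow_right_injective h.prime.two_le (e.symm.trans k1)
    rcases (Nat.dvd_prime Nat.prime_five).1 (Dvd.intro _ e3) with e4 | e4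
    · exact Or.inr ⟨by rw [hn, e4, pow_one], k1⟩
    · exact Or.inl (t (by rw [e4] at e3; omega))

theorem gen (k : Subfield F) (hk : ω + ω ^ 10 ∈ k) : k = ⊤ := by
  refine (h.card_sub k).resolve_right fun ⟨k1, k2⟩ => ?_
  haveI := h.finF
  haveI := h.char
  haveI := Fact.mk h.prime
  letI := Fintype.ofFinite k
  have e : (ω + ω ^ 10) ^ p = ω + ω ^ 10 := by
    have := FiniteField.pow_card (⟨_, hk⟩ : k)
    rw [← Nat.card_eq_fintype_card, k1] at this
    exact congrArg Subtype.val this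
  have w := h.one11
  rw [add_pow_char, ← pow_mul, pow_eq_pow_mod p w, pow_eq_pow_mod (10 * p) w, Nat.mul_mod] at e
  rcases h.cd with ⟨k3, -⟩ | ⟨-, k3 | k3 | k3 | k3⟩
  · have := Nat.pow_right_injective h.prime.two_le (k2.symm.trans (k3.trans (pow_one p).symm))
    omega
  · rw [k3] at e
    exact mul_ne_zero (h.ne (k := 3) (l := 1) (by norm_num)) (h.ne (k := 0) (l := 7) (by norm_num))
      (by linear_combination e)
  · rw [k3] at e
    exact mul_ne_zero (h.ne (k := 4) (l := 1) (by norm_num)) (h.ne (k := 0) (l := 6) (by norm_num))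
      (by linear_combination e)
  · rw [k3] at e
    exact mul_ne_zero (h.ne (k := 5) (l := 1) (by norm_num)) (h.ne (k := 0) (l := 5) (by norm_num))
      (by linear_combination e)
  · rw [k3] at e
    exact mul_ne_zero (h.ne (k := 9) (l := 1) (by norm_num)) (h.ne (k := 0) (l := 1) (by norm_num))
      (by linear_combination e)

theorem nosq (k : Subfield F) (q : ℕ) : Nat.card k ≠ q ^ 2 := fun e => by
  have k1 : ∀ n, p ^ (2 * n + 1) ≠ q ^ 2 := fun n e => by
    have := congrArg (·.factorization p) e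
    simp [h.prime.factorization_pow, h.prime.factorization_self] at this
    omega
  rcases h.card_sub k with rfl | ⟨k2, -⟩
  · rw [Nat.card_congr Subfield.topEquiv.toEquiv] at e
    rcases h.cd with ⟨k3, -⟩ | ⟨k3, -⟩
    · exact k1 0 (by simpa [k3] using e)
    · exact k1 2 (k3 ▸ e)
  · exact k1 0 (by simpa [k2] using e)

theorem hδ' : InM M δ' := h.hδ.inv δδ'

theorem cτ {X : M11 F} (hX : InM M X) : InM M (τ * X * τ') := (h.hτ.mul hX).mul (h.hτ.inv ττ')

theorem cδ {X : M11 F} (hX : InM M X) : InM M (δ * X * δ') := (h.hδ.mul hX).mul h.hδ'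

theorem cσ {X : M11 F} (hX : InM M X) : InM M (σ * X * σ) := (h.hσ.mul hX).mul h.hσ

/-- one full root subgroup gives everything -/
theorem big {i j : Fin 11} (hij : i ≠ j) (hX : ∀ c, InM M (transvection i j c)) : SLin M := by
  let P : Fin 11 → Fin 11 → Prop := fun i j => ∀ c, InM M (transvection i j c)
  have k : ∀ f : Fin 11 → Fin 11, (∀ i j, P i j → P (f i) (f j)) → ∀ (a : ℕ) i j,
      P i j → P (f^[a] i) (f^[a] j) := fun f hf a => by
    induction a with
    | zero => exact fun _ _ h => h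
    | succ a ih => exact fun i j h => ih _ _ (hf i j h)
  have k1 := k (· + 1) fun i j a c => (h.cτ (a c)).congr (conj_tv ττ' (· + 1) (one_mul 1)
    (fun a i => rfl) (fun a i => if_congr (by revert a i; decide) rfl rfl) i j c)
  have k2 := k (3 * ·) fun i j a c => (h.cδ (a c)).congr (conj_tv δδ' (3 * ·) (one_mul 1)
    (fun a i => rfl) (fun a i => if_congr (by revert a i; decide) rfl rfl) i j c)
  have k3 := k (10 * ·) fun i j a c => (h.cσ (a c)).congr (conj_tv σσ (10 * ·) (e := -1) (by simp)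
    (fun a i => rfl) (fun a i => if_congr (by revert a i; decide) rfl rfl) i j c)
  have k5 : ∀ i j : Fin 11, i ≠ j → ∃ b : Fin 11, ∃ a : Fin 5, ∃ c : Fin 2,
      (10 * ·)^[c] ((3 * ·)^[a] ((· + 1)^[b] i)) = 0 ∧
        (10 * ·)^[c] ((3 * ·)^[a] ((· + 1)^[b] j)) = 1 := by decide +kernel
  have k6 : ∀ i j : Fin 11, i ≠ j → ∃ b : Fin 11, ∃ a : Fin 5, ∃ c : Fin 2,
      (· + 1)^[b] ((3 * ·)^[a] ((10 * ·)^[c] 0)) = i ∧
        (· + 1)^[b] ((3 * ·)^[a] ((10 * ·)^[c] 1)) = j := by decide +kernel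
  refine slin_of_elem fun i' j' hij' => ?_
  obtain ⟨b, a, c, e1, e2⟩ := k5 i j hij
  have := k3 c _ _ (k2 a _ _ (k1 b _ _ hX))
  rw [e1, e2] at this
  obtain ⟨b, a, c, rfl, rfl⟩ := k6 i' j' hij'
  exact k1 b _ _ (k2 a _ _ (k3 c _ _ this))

end Hy

/-- the stabiliser of the splitting `W₀ ⊕ W 0 ⊕ ⋯ ⊕ W 4` -/
def HH (M : Subgroup (GL (Fin 11) F)) : Subgroup (GL (Fin 11) F) :=
  M ⊓ (Cm (A0 F * B0 F) ⊓ ⨅ k, Cm (Ak F k * Bk F k))

variable {M : Subgroup (GL (Fin 11) F)}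

theorem HH0 : HH M ≤ Cm (A0 F * B0 F) := fun _ h => h.2.1
theorem HHk (k : Fin 5) : HH M ≤ Cm (Ak F k * Bk F k) := fun _ h => Subgroup.mem_iInf.1 h.2.2 k

def r0 (M : Subgroup (GL (Fin 11) F)) := rs' BA0 (HH0 (M := M))
def rk (M : Subgroup (GL (Fin 11) F)) (k : Fin 5) := rs' (BAk k) (HHk (M := M) k)

theorem rk_apply (g : HH M) (k : Fin 5) (a b : Fin 2) : (rk M k g).1 a b = g.1.1 (pl k a) (pl k b) :=
  res_k k k _ a b

theorem r0_apply (g : HH M) (a b : Fin 1) : (r0 M g).1 a b = g.1.1 0 0 := res_0 _ a b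

theorem HH_bk (g : HH M) : g.1.1 = bk ((r0 M g).1 0 0) fun k => (rk M k g).1 := by
  rw [bk, show !![(r0 M g).1 0 0] = (r0 M g).1 by
    ext i j; simp [-rs'_val, Subsingleton.elim i 0, Subsingleton.elim j 0]]
  simp only [r0, rk, rs'_val]
  rw [sandwich BA0 (HH0 g.2), Finset.sum_congr rfl fun k _ => sandwich (BAk k) (HHk k g.2),
    ← Finset.mul_sum, ← mul_add, sum6, Matrix.mul_one]

theorem AB0_eq : A0 F * B0 F = diagonal fun i => if i = 0 then 1 else 0 := by
  ext i j; simp only [A0, B0, mul_apply, of_apply, diagonal_apply, Fin.sum_univ_one]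
  split_ifs <;> simp_all

theorem ABk_eq (k : Fin 5) :
    Ak F k * Bk F k = diagonal fun i => if i = pl k 0 ∨ i = pl k 1 then 1 else 0 := by
  ext i j; simp only [Ak, Bk, mul_apply, of_apply, diagonal_apply, Fin.sum_univ_two]
  have : pl k 0 ≠ pl k 1 := by simp [pl_inj]
  split_ifs <;> simp_all

/-- block matrices lie in the stabiliser -/
theorem ex_HH {a : F} {X : Fin 5 → M2 F} (hX : InM M (bk a X)) : ∃ g : HH M, g.1.1 = bk a X ∧
    (r0 M g).1 = !![a] ∧ ∀ k, (rk M k g).1 = X k := by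
  obtain ⟨g, hg, e⟩ := hX
  refine ⟨⟨g, hg, mem_Cm.2 ?_, Subgroup.mem_iInf.2 fun k => mem_Cm.2 ?_⟩, e, ?_, fun k => ?_⟩
  · rw [e, AB0_eq]
    exact ext_pl (by simp) (by simp [bk0k]) (by simp [bkk0]) (by simp [pl_ne])
  · rw [e, ABk_eq]
    refine ext_pl (by simp [mul_comm]) (by simp [bk0k]) (by simp [bkk0]) fun l a m b => ?_
    simp only [mul_diagonal, diagonal_mul, bkkk, pl_inj]
    split_ifs <;> simp_all <;> omega
  · ext i j; simp [r0_apply, e, bk00, Subsingleton.elim i 0, Subsingleton.elim j 0]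
  · ext i j; simp [rk_apply, e, bkkk]

theorem pl_four (k : Fin 5) (a : Fin 2) : 4 * pl k a = pl (k + 4) a := by revert k a; decide
theorem pl_three (k : Fin 5) (a : Fin 2) : 3 * pl k a = pl (k + 1) a := by revert k a; decide
theorem pl_neg (k : Fin 5) (a : Fin 2) : 10 * pl k a = pl k (a + 1) := by revert k a; decide

theorem δ_bk (a : F) (X : Fin 5 → M2 F) : δ * bk a X * δ' = bk a fun k => X (k + 4) :=
  ext_pl (by simp [mulδ', δmul, bk00]) (by simp [mulδ', δmul, bk0k, pl_four])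
    (by simp [mulδ', δmul, bkk0, pl_four]) (by simp [mulδ', δmul, bkkk, pl_four])

/-- `δ` permutes the five planes cyclically -/
theorem Hy.cyc {p : ℕ} {ω : F} (h : Hy p ω M) (g : HH M) : ∃ g' : HH M, r0 M g' = r0 M g ∧
    ∀ k, rk M (k + 1) g' = rk M k g := by
  obtain ⟨g', -, a, b⟩ := ex_HH ((h.cδ (InM.of g.2.1)).congr (by rw [HH_bk, δ_bk]))
  refine ⟨g', Units.ext ?_, fun k => Units.ext ?_⟩
  · rw [a]; ext i j; simp [-rs'_val, Subsingleton.elim i 0, Subsingleton.elim j 0]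
  · rw [b, add_assoc, show (1 + 4 : Fin 5) = 0 from rfl, add_zero]

end Cfsg.Agent.H8.C11
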