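import Cfsg.Agent.H8.C11.Cy
import Cfsg.Agent.H8.C11.End
import Cfsg.Agent.H5.C11.TH
import Cfsg.Agent.L.X0

/-! Passing to the basis adapted to a four-group. -/

set_option autoImplicit false
set_option linter.unusedSimpArgs false
set_option linter.unusedVariables false

namespace Cfsg.Agent.H8.C11

open Matrix Cfsg.Agent.H5.T3 Cfsg.Agent.H5.C5 Cfsg.Agent.L.X11

variable {F : Type*} [Field F] {ω : F}

/-- coefficient lists of a matrix over `ℤ[√-11]` -/
def zl (X : MZ) : ML := fun i j => pa [(X i j).re] (ps (X i j).im Gl)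

theorem em_zl (h : Om11 ω) (X : MZ) : em ω (zl X) = X.map (L.X11.ev (GG h)) := by
  ext i j
  simp only [em, zl, of_apply, pe_pa, pe_ps, map_apply]
  rw [show L.X11.ev (GG h) (X i j) = _ from ev_mk (GG h) (X i j).re (X i j).im]
  simp [pe]

theorem Du (h : Om11 ω) : (16 : F) • (em ω Dl * em ω ul) = u16.map (L.X11.ev (GG h)) * em ω Dl := by
  rw [← em_zl h, ← em_mm, ← em_mm, ← em_eq h 22 (A := ms [16] (mm Dl ul)) (B := mm (zl u16) Dl) (by decide +kernel), em_ms]
  simp [pe]

theorem Df (h : Om11 ω) :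
    em ω Dl * ((-pe ω Gl) • Φu ω) = (11 : F) • (fZ.map (L.X11.ev (GG h)) * em ω Dl) := by
  have e : (-pe ω Gl) • Φu ω = em ω (ms (ps (-1) Gl) Φl) := by rw [em_ms, em_Φl, pe_ps]; simp
  rw [e, ← em_zl h, ← em_mm, ← em_mm, em_eq h 25 (A := mm Dl (ms (ps (-1) Gl) Φl))
    (B := ms [11] (mm (zl fZ) Dl)) (by decide +kernel), em_ms]
  simp [pe]

variable {M : Subgroup (GL (Fin 11) F)} {p : ℕ}

/-- the structure used for the centraliser of the quaternion group -/
theorem Hy.xs (h : Hy p ω M) (kU : ∀ (g : CC M) (c : F), (ru h.two M g).1 = c • 1 → c ^ 11 = 1)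
    (kU1 : ∀ g : CC M, ru h.two M g = 1 → g.1.1 = 1 ∨ g.1.1 = σ)
    (kV : ∀ (g : CC M) (a : F), (rv h.two M g).1 = a • 1 → ∃ b : F, (ru h.two M g).1 = b • 1)
    {s : CC M} (hs : s.1.1 = σ) :
    ∃ (g : F) (π : CC M →* GL (Fin 5) F) (u f : CC M), XS p ω g π (rv h.two M) s u f := by
  have h2 := h.two
  have h88 : (88 : F) ≠ 0 := by
    rw [show (88 : F) = 2 ^ 3 * 11 by norm_num]; exact mul_ne_zero (pow_ne_zero _ h2) h.eleven
  have db : em ω Dl * ((88 : F)⁻¹ • em ω Bl) = 1 := by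
    rw [Matrix.mul_smul, DB h.om, smul_smul, inv_mul_cancel₀ h88, one_smul]
  let D : GL (Fin 5) F := ⟨_, _, db, mul_eq_one_comm.1 db⟩
  have hD : D.1 = em ω Dl := rfl
  let π : CC M →* GL (Fin 5) F := (MulAut.conj D).toMonoidHom.comp (ru h2 M)
  have hπ : ∀ c, (π c).1 = D.1 * (ru h2 M c).1 * (D⁻¹).1 := fun c => rfl
  have sc : ∀ c (b : F), (π c).1 = b • 1 ↔ (ru h2 M c).1 = b • 1 := fun c b => by
    rw [hπ, Units.mul_inv_eq_iff_eq_mul, smul_one_mul, show b • D.1 = D.1 * b • 1 by simp,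
      Units.mul_right_inj]
  have sm : ∀ c : CC M, (ru h2 M c).1 ≠ -1 := fun c e => by
    have := kU c (-1) (by rw [e]; simp)
    exact h2 (by linear_combination -this)
  obtain ⟨u, -, u1, -⟩ := h.exu
  obtain ⟨f, c, hc, f0, f1, -⟩ := h.exφ
  rw [← em_ul] at u1
  have hcG : 11 * c = -pe ω Gl := by
    refine (mul_self_eq_mul_self_iff.1 (show 11 * c * (11 * c) = pe ω Gl * pe ω Gl by
      rw [GG h.om]; linear_combination 11 * hc)).resolve_left fun e => sm ((f * u ^ 6) ^ 3) ?_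
    have := cube h.om
    rw [← e, neg_smul, mul_smul, ← f1, ← u1, neg_mul, Odd.neg_pow (by decide), smul_mul_assoc,
      _root_.smul_pow, neg_eq_iff_eq_neg, ← smul_neg, show (1331 : F) = 11 ^ 3 by norm_num] at this
    simpa only [map_pow, map_mul, Units.val_pow_eq_pow_val, Units.val_mul] using
      smul_right_injective _ (pow_ne_zero 3 h.eleven) this
  haveI := h.fin
  refine ⟨pe ω Gl, π, u, f,
    { fh := H5.C11.fh_of h, fin := inferInstance, hg := GG h.om
      cen := fun c => Subtype.ext (Units.ext (by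
        simp only [Subgroup.coe_mul, Units.val_mul, hs, CC_comm h2]))
      σ2 := Subtype.ext (Units.ext (by simp only [Subgroup.coe_mul, Units.val_mul, hs, σσ]; rfl))
      πσ := Units.ext (by rw [hπ, ru_σ h2 hs, Matrix.mul_one, Units.mul_inv]; rfl)
      ψσ := rv_σ h2 hs
      kerU := fun c e => (kU1 c (Units.ext (by
        simpa using (sc c 1).1 (by simp [e])))).imp (fun e => Subtype.ext (Units.ext e))
          fun e => Subtype.ext (Units.ext (e.trans hs.symm))
      scU := fun c e => sm c (by simpa using (sc c (-1)).1 (by simp [e]))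
      kerV := fun c a e => let ⟨b, hb⟩ := kV c a e; ⟨b, (sc c b).2 hb⟩
      det := fun c => by rw [hπ, det_units_conj, ← CC_det h2, h.det _ c.2.1]
      hu := ?_, hf := ?_
      ff := Subtype.ext (Units.ext (by
        simp only [Subgroup.coe_mul, Units.val_mul, hs, f0, h.φφ hc])) }⟩
  · rw [Rp, hπ, ← smul_mul_assoc, Units.mul_inv_eq_iff_eq_mul, hD, u1, ← Du h.om]; norm_num
  · rw [Rp.zero, hπ, Units.mul_inv_eq_iff_eq_mul, hD, f1]
    refine smul_right_injective _ h.eleven ?_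
    simp only []
    rw [← Df h.om, ← hcG, mul_smul, Matrix.mul_smul _ (11 : F)]

end Cfsg.Agent.H8.C11
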